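import Mathlib
import Cfsg.Prelude.Def_CaseTheorems

set_option autoImplicit false
open Cfsg Subgroup

namespace CfsgL.AbSyl

universe u v

variable {G : Type u} [Group G]

/-- involutions of a subgroup with commuting elements -/
def Om (H : Subgroup G) (hc : ∀ x ∈ H, ∀ y ∈ H, x * y = y * x) : Subgroup G where
  carrier := {x | x ∈ H ∧ x * x = 1}
  one_mem' := ⟨H.one_mem, mul_one 1⟩
  mul_mem' := by
    rintro x y ⟨hx, hxx⟩ ⟨hy, hyy⟩
    refine ⟨H.mul_mem hx hy, ?_⟩
    have h := hc x hx y hy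
    calc x * y * (x * y) = x * (y * x) * y := by simp only [mul_assoc]
      _ = (x * x) * (y * y) := by rw [← h]; simp only [mul_assoc]
      _ = 1 := by rw [hxx, hyy, mul_one]
  inv_mem' := by
    rintro x ⟨hx, hxx⟩
    exact ⟨H.inv_mem hx, by rw [← mul_inv_rev, hxx, inv_one]⟩

theorem mem_Om {H : Subgroup G} {hc : ∀ x ∈ H, ∀ y ∈ H, x * y = y * x} {x : G} : x ∈ Om H hc ↔ x ∈ H ∧ x * x = 1 := Iff.rfl

theorem rank_iff [Finite G] {H : Subgroup G} {hc : ∀ x ∈ H, ∀ y ∈ H, x * y = y * x} (k : ℕ) :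
    PRankLE 2 k ↥H ↔ Nat.card ↥(Om H hc) ≤ 2 ^ k := by
  constructor
  · intro h
    have h1 := h ((Om H hc).subgroupOf H) ⟨⟨fun a b => by
      apply Subtype.ext; apply Subtype.ext
      exact hc _ (a : ↥H).2 _ (b : ↥H).2⟩⟩ (fun a ha => by
      apply Subtype.ext
      change (a : G) ^ 2 = 1
      rw [pow_two]; exact ha.2)
    have h2 := Subgroup.card_map_of_injective (K := (Om H hc).subgroupOf H) H.subtype_injective
    rw [Subgroup.subgroupOf_map_subtype, inf_eq_left.2 (show Om H hc ≤ H from fun x hx => hx.1)] at h2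
    rw [h2]; exact h1
  · intro h A hA hA2
    refine le_trans ?_ h
    rw [← Subgroup.card_map_of_injective (K := A) H.subtype_injective]
    apply Nat.le_of_dvd Nat.card_pos
    apply Subgroup.card_dvd_of_le
    rintro _ ⟨x, hx, rfl⟩
    refine ⟨x.2, ?_⟩
    have := congrArg Subtype.val (hA2 x hx)
    rw [← pow_two]; exact this

theorem card_Om [Finite G] {H : Subgroup G} {hc : ∀ x ∈ H, ∀ y ∈ H, x * y = y * x} : ∃ k, Nat.card ↥(Om H hc) = 2 ^ k := by
  haveI : Fact (Nat.Prime 2) := ⟨Nat.prime_two⟩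
  have : IsPGroup 2 ↥(Om H hc) := by
    intro x
    refine ⟨1, Subtype.ext ?_⟩
    change (x : G) ^ 2 ^ 1 = 1
    rw [pow_one, pow_two]; exact x.2.2
  exact IsPGroup.iff_card.1 this

/-- no index 2 subgroup: homs to 2-groups are trivial -/
theorem hom_triv [Finite G] (hG : ∀ H : Subgroup G, H.index ≠ 2) {A : Type v} [Group A] (f : G →* A) (hA : IsPGroup 2 A) (g : G) : f g = 1 := by
  haveI : Fact (Nat.Prime 2) := ⟨Nat.prime_two⟩
  by_contra hg
  have hR : IsPGroup 2 ↥f.range := hA.to_subgroup _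
  haveI : Finite ↥f.range := Finite.of_surjective f.rangeRestrict f.rangeRestrict_surjective
  obtain ⟨n, hn⟩ := IsPGroup.iff_card.1 hR
  have hn0 : n ≠ 0 := by
    rintro rfl
    rw [pow_zero] at hn
    have : Subsingleton ↥f.range := (Nat.card_eq_one_iff_unique.1 hn).1
    apply hg
    exact congrArg Subtype.val (this.elim (⟨f g, ⟨g, rfl⟩⟩ : ↥f.range) 1)
  obtain ⟨m, rfl⟩ := Nat.exists_eq_succ_of_ne_zero hn0
  obtain ⟨K, hK⟩ := Sylow.exists_subgroup_card_pow_prime (G := ↥f.range) 2 (n := m) (by rw [hn]; exact pow_dvd_pow 2 (Nat.le_succ m))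
  have h1 : K.index = 2 := by
    have := K.card_mul_index
    rw [hK, hn, pow_succ] at this
    exact Nat.eq_of_mul_eq_mul_left (by positivity) this
  apply hG (K.comap f.rangeRestrict)
  rw [Subgroup.index_comap_of_surjective _ f.rangeRestrict_surjective, h1]

theorem fix_triv [Finite G] (hG : ∀ H : Subgroup G, H.index ≠ 2) (S : Sylow 2 G) (hS : IsMulCommutative (S : Subgroup G)) {x : G}
    (hx : x ∈ (S : Subgroup G)) (hfix : ∀ n ∈ Subgroup.normalizer ((S : Subgroup G) : Set G), n * x * n⁻¹ = x) : x = 1 := by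
  classical
  haveI : Fact (Nat.Prime 2) := ⟨Nat.prime_two⟩
  letI : CommGroup ↥(S : Subgroup G) := { (inferInstance : Group ↥(S : Subgroup G)) with mul_comm := hS.is_comm.comm }
  haveI := hS
  have key : ∀ (k : ℕ) (g₀ : G), g₀⁻¹ * x ^ k * g₀ ∈ (S : Subgroup G) → g₀⁻¹ * x ^ k * g₀ = x ^ k := by
    intro k g₀ h
    obtain ⟨n, hn, he⟩ := Sylow.conj_eq_normalizer_conj_of_mem S (x ^ k) g₀ (pow_mem hx k) h
    rw [he]
    have h1 := hfix n hn
    have h2 : n * x ^ k * n⁻¹ = x ^ k := by rw [← conj_pow, h1]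
    calc n⁻¹ * x ^ k * n = n⁻¹ * (n * x ^ k * n⁻¹) * n := by rw [h2]
      _ = x ^ k := by group
  have h1 := MonoidHom.transfer_eq_pow (MonoidHom.id ↥(S : Subgroup G)) x key
  rw [hom_triv hG _ S.isPGroup' x] at h1
  have h2 : x ^ (S : Subgroup G).index = 1 := (congrArg Subtype.val h1).symm
  obtain ⟨k, hk⟩ := S.isPGroup' ⟨x, hx⟩
  have hk' : x ^ 2 ^ k = 1 := congrArg Subtype.val hk
  have hcop : Nat.Coprime (2 ^ k) (S : Subgroup G).index :=
    Nat.Coprime.pow_left k ((Nat.Prime.coprime_iff_not_dvd Nat.prime_two).2 S.not_dvd_index)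
  exact orderOf_eq_one_iff.1 (Nat.eq_one_of_dvd_coprimes hcop (orderOf_dvd_of_pow_eq_one hk') (orderOf_dvd_of_pow_eq_one h2))

theorem main [Finite G] (hG : ∀ H : Subgroup G, H.index ≠ 2) (S : Sylow 2 G) (hS : IsMulCommutative (S : Subgroup G)) 
    {V W : Subgroup G} (hVS : V ≤ (S : Subgroup G)) (hVn : ∀ n ∈ Subgroup.normalizer ((S : Subgroup G) : Set G), ∀ v ∈ V, n * v * n⁻¹ ∈ V)
    (hWV : W.relIndex V = 2) {t : G} (ht : t ∈ V) : ∃ n ∈ Subgroup.normalizer ((S : Subgroup G) : Set G), n * t * n⁻¹ ∈ W := by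
  classical
  haveI : Fact (Nat.Prime 2) := ⟨Nat.prime_two⟩
  by_contra hcon
  push Not at hcon
  letI : CommGroup ↥(S : Subgroup G) := { (inferInstance : Group ↥(S : Subgroup G)) with mul_comm := hS.is_comm.comm }
  set N := Subgroup.normalizer ((S : Subgroup G) : Set G) with hN
  have hSN : (S : Subgroup G) ≤ N := Subgroup.le_normalizer
  let Q := ↥N ⧸ (S : Subgroup G).subgroupOf N
  letI : Fintype Q := Fintype.ofFinite _
  let f : Q → ↥(S : Subgroup G) := fun q => ⟨((q.out : ↥N) : G) * t * ((q.out : ↥N) : G)⁻¹, hVS (hVn _ (q.out : ↥N).2 t ht)⟩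
  have hst : ∀ s ∈ (S : Subgroup G), s * t * s⁻¹ = t := by
    intro s hs
    have h1 : s * t = t * s := congrArg Subtype.val (hS.is_comm.comm (⟨s, hs⟩ : ↥(S : Subgroup G)) ⟨t, hVS ht⟩)
    rw [h1, mul_inv_cancel_right]
  have hf : ∀ (n : ↥N) (q : Q), ((f (n • q) : ↥(S : Subgroup G)) : G) = n * (f q : G) * (n : G)⁻¹ := by
    intro n q
    have h1 : (QuotientGroup.mk (n • q).out : Q) = QuotientGroup.mk (n * q.out) := by
      rw [QuotientGroup.out_eq']
      conv_lhs => rw [← QuotientGroup.out_eq' q]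
      rfl
    rw [QuotientGroup.eq] at h1
    have h2 : (((n • q).out : ↥N) : G)⁻¹ * ((n : G) * ((q.out : ↥N) : G)) ∈ (S : Subgroup G) := h1
    obtain ⟨s, hs⟩ : ∃ s, s = (((n • q).out : ↥N) : G)⁻¹ * ((n : G) * ((q.out : ↥N) : G)) := ⟨_, rfl⟩
    rw [← hs] at h2
    have h3 := hst s h2
    change (((n • q).out : ↥N) : G) * t * (((n • q).out : ↥N) : G)⁻¹ = n * (((q.out : ↥N) : G) * t * ((q.out : ↥N) : G)⁻¹) * (n : G)⁻¹
    have h4 : (n : G) * ((q.out : ↥N) : G) = (((n • q).out : ↥N) : G) * s := by rw [hs]; group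
    calc (((n • q).out : ↥N) : G) * t * (((n • q).out : ↥N) : G)⁻¹ = (((n • q).out : ↥N) : G) * (s * t * s⁻¹) * (((n • q).out : ↥N) : G)⁻¹ := by rw [h3]
      _ = ((((n • q).out : ↥N) : G) * s) * t * ((((n • q).out : ↥N) : G) * s)⁻¹ := by group
      _ = ((n : G) * ((q.out : ↥N) : G)) * t * ((n : G) * ((q.out : ↥N) : G))⁻¹ := by rw [h4]
      _ = n * (((q.out : ↥N) : G) * t * ((q.out : ↥N) : G)⁻¹) * (n : G)⁻¹ := by group
  -- parity
  have hidx : (W.subgroupOf V).index = 2 := hWV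
  have hpar : ∀ s : Finset Q, ((∏ q ∈ s, f q : ↥(S : Subgroup G)) : G) ∈ V ∧ (((∏ q ∈ s, f q : ↥(S : Subgroup G)) : G) ∈ W ↔ Even s.card) := by
    intro s
    induction s using Finset.induction_on with
    | empty =>
      rw [Finset.prod_empty]
      refine ⟨V.one_mem, ?_⟩
      simp only [Finset.card_empty, Even.zero, iff_true]
      exact W.one_mem
    | insert a s ha ih =>
      rw [Finset.prod_insert ha, Finset.card_insert_of_notMem ha]
      have h1 : ((f a : ↥(S : Subgroup G)) : G) ∈ V := hVn _ (a.out : ↥N).2 t ht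
      have h2 : ((f a : ↥(S : Subgroup G)) : G) ∉ W := hcon _ (a.out : ↥N).2
      refine ⟨V.mul_mem h1 ih.1, ?_⟩
      have h3 := Subgroup.mul_mem_iff_of_index_two hidx (a := ⟨_, h1⟩) (b := ⟨_, ih.1⟩)
      have h4 : ((f a * ∏ q ∈ s, f q : ↥(S : Subgroup G)) : G) ∈ W ↔ (((f a : ↥(S : Subgroup G)) : G) ∈ W ↔ ((∏ q ∈ s, f q : ↥(S : Subgroup G)) : G) ∈ W) := h3
      rw [h4, ih.2, Nat.even_add_one]
      tauto
  have hP : ((∏ q, f q : ↥(S : Subgroup G)) : G) = 1 := by
    apply fix_triv hG S hS (∏ q, f q : ↥(S : Subgroup G)).2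
    intro n hn
    let e : ↥(S : Subgroup G) →* ↥(S : Subgroup G) := {
      toFun := fun s => ⟨n * s * n⁻¹, (Subgroup.mem_normalizer_iff.1 hn s).1 s.2⟩
      map_one' := by apply Subtype.ext; change n * 1 * n⁻¹ = 1; group
      map_mul' := by intro a b; apply Subtype.ext; change n * (a * b) * n⁻¹ = n * a * n⁻¹ * (n * b * n⁻¹); group }
    have h1 : e (∏ q, f q) = ∏ q, f q := by
      rw [map_prod]
      have h2 : ∀ q : Q, e (f q) = f ((⟨n, hn⟩ : ↥N) • q) := by
        intro q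
        apply Subtype.ext
        exact (hf ⟨n, hn⟩ q).symm
      rw [Finset.prod_congr rfl (fun q _ => h2 q)]
      exact Equiv.prod_comp (MulAction.toPerm (⟨n, hn⟩ : ↥N) : Equiv.Perm Q) f
    exact congrArg Subtype.val h1
  have h5 := (hpar Finset.univ).2.1 (by rw [hP]; exact W.one_mem)
  have h6 : Fintype.card Q = (S : Subgroup G).relIndex N := by
    rw [← Nat.card_eq_fintype_card]; rfl
  rw [Finset.card_univ, h6] at h5
  have h7 : (S : Subgroup G).relIndex N ∣ (S : Subgroup G).index := Subgroup.relIndex_dvd_index_of_le hSN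
  exact S.not_dvd_index (h5.two_dvd.trans h7)

end CfsgL.AbSyl
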