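import Cfsg.Agent.L.Misc.PConLoc
import Cfsg.Agent.H7.CharP
import Cfsg.Agent.H1.HHPrime
import Cfsg.Agent.H1.PSolv

set_option autoImplicit false
open Cfsg Subgroup CfsgH1

namespace CfsgL.CharPX

universe u v

variable {G : Type u} [Group G] {p : ℕ}

theorem core_le (C : Subgroup G) [C.Normal] : (pCore p ↥C).map C.subtype ≤ pCore p G :=
  CfsgH2.le_pCore (ConjAct.normal_of_characteristic_of_normal) ((CfsgH2.isPGroup_pCore p).map _)

theorem charP_of_cent (T : Subgroup G) (hT : IsPGroup p ↥T) [hTn : T.Normal]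
    (h : CharP p ↥(Subgroup.centralizer (T : Set G))) : CharP p G := by
  intro x hx
  haveI : (Subgroup.centralizer (T : Set G)).Normal := inferInstance
  have hTc : T ≤ pCore p G := CfsgH2.le_pCore hTn hT
  have hxC : x ∈ Subgroup.centralizer (T : Set G) := Subgroup.centralizer_le hTc hx
  have h7 : (⟨x, hxC⟩ : ↥(Subgroup.centralizer (T : Set G))) ∈ Subgroup.centralizer (pCore p ↥(Subgroup.centralizer (T : Set G)) : Set _) := by
    rw [Subgroup.mem_centralizer_iff]
    intro y hy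
    apply Subtype.ext
    exact Subgroup.mem_centralizer_iff.1 hx _ (core_le _ ⟨y, hy, rfl⟩)
  exact core_le _ ⟨_, h h7, rfl⟩

theorem charP_ext [Finite G] [hp : Fact p.Prime] (C : Subgroup G) [C.Normal] (h : CharP p ↥C) (hX : ∀ x : G, ∃ k : ℕ, x ^ p ^ k ∈ C) : CharP p G := by
  apply CfsgH2.le_pCore (inferInstance : (centralizer (pCore p G : Set G)).Normal)
  rintro ⟨y, hy⟩
  obtain ⟨k, hk⟩ := hX y
  have h7 : (⟨y ^ p ^ k, hk⟩ : ↥C) ∈ Subgroup.centralizer (pCore p ↥C : Set ↥C) := by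
    rw [Subgroup.mem_centralizer_iff]
    intro z hz
    apply Subtype.ext
    exact Subgroup.mem_centralizer_iff.1 (pow_mem hy _) _ (core_le C ⟨z, hz, rfl⟩)
  obtain ⟨j, hj⟩ := CfsgH2.isPGroup_pCore (G := ↥C) p ⟨_, h h7⟩
  have hj' : (y ^ p ^ k) ^ p ^ j = 1 := congrArg Subtype.val (congrArg Subtype.val hj)
  refine ⟨k + j, Subtype.ext ?_⟩
  change y ^ p ^ (k + j) = 1
  rw [pow_add, pow_mul]; exact hj'

theorem charP_cent_sub [Finite G] [hp : Fact p.Prime] (T : Subgroup G) (hT : IsPGroup p ↥T) (M : Subgroup G) (hTM : T ≤ M)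
    (hM : CharP p ↥M) (hN : Subgroup.centralizer (T : Set G) ≤ M) : CharP p ↥(Subgroup.centralizer (T : Set G)) := by
  have h1 := hM.centralizer (P := T.subgroupOf M) (hT.comap_of_injective _ (Subgroup.subtype_injective _))
  have e1 : Subgroup.centralizer ((T.subgroupOf M : Subgroup ↥M) : Set ↥M) = (Subgroup.centralizer (T : Set G)).subgroupOf M := by
    ext x
    rw [Subgroup.mem_centralizer_iff, Subgroup.mem_subgroupOf, Subgroup.mem_centralizer_iff]
    constructor
    · intro h1 t ht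
      exact congrArg Subtype.val (h1 ⟨t, hTM ht⟩ ht)
    · intro h1 t ht
      exact Subtype.ext (h1 t ht)
  rw [e1] at h1
  exact h1.congr (Subgroup.subgroupOfEquivOfLe hN)

theorem charP_normalizer (T : Subgroup G) (hT : IsPGroup p ↥T)
    (h : CharP p ↥(Subgroup.centralizer (T : Set G))) : CharP p ↥(Subgroup.normalizer (T : Set G)) := by
  haveI : (T.subgroupOf (Subgroup.normalizer (T : Set G))).Normal := Subgroup.normal_in_normalizer
  refine charP_of_cent (T.subgroupOf (Subgroup.normalizer (T : Set G))) (hT.comap_of_injective _ (Subgroup.subtype_injective _)) ?_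
  have e1 : Subgroup.centralizer ((T.subgroupOf (Subgroup.normalizer (T : Set G)) : Subgroup _) : Set ↥(Subgroup.normalizer (T : Set G))) =
      (Subgroup.centralizer (T : Set G)).subgroupOf (Subgroup.normalizer (T : Set G)) := by
    ext x
    rw [Subgroup.mem_centralizer_iff, Subgroup.mem_subgroupOf, Subgroup.mem_centralizer_iff]
    constructor
    · intro h1 t ht
      exact congrArg Subtype.val (h1 ⟨t, Subgroup.le_normalizer ht⟩ ht)
    · intro h1 t ht
      exact Subtype.ext (h1 t ht)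
  rw [e1]
  exact h.congr (Subgroup.subgroupOfEquivOfLe (Subgroup.centralizer_le_normalizer _)).symm

/-- characteristic `p` of `C_G(V)` passes to `C_G(U)` -/
theorem charP_up [Finite G] [hp : Fact p.Prime] (U : Subgroup G) (hU : IsPGroup p ↥U) (n : ℕ) : ∀ V : Subgroup G, V ≤ U → V.relIndex U = n →
    CharP p ↥(Subgroup.centralizer (V : Set G)) → CharP p ↥(Subgroup.centralizer (U : Set G)) := by
  induction n using Nat.strong_induction_on with
  | _ n ih =>
  intro V hVU hn hV
  by_cases hne : V = U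
  · rw [← hne]; exact hV
  have hlt : V < U := lt_of_le_of_ne hVU hne
  -- normalizer growth
  have hnc : NormalizerCondition ↥U := by
    haveI := hU.isNilpotent
    exact Group.normalizerCondition_of_isNilpotent
  have hlt2 : V.subgroupOf U < ⊤ := by
    rw [lt_top_iff_ne_top]
    intro h
    rw [Subgroup.subgroupOf_eq_top] at h
    exact hne (le_antisymm hVU h)
  obtain ⟨m, hm1, hm2⟩ := SetLike.exists_of_lt (hnc _ hlt2)
  set V' : Subgroup G := U ⊓ Subgroup.normalizer (V : Set G) with hV'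
  have hmV' : (m : G) ∈ V' := by
    refine ⟨m.2, Subgroup.mem_normalizer_iff.2 ?_⟩
    intro u
    rw [Subgroup.mem_normalizer_iff] at hm1
    constructor
    · intro hu
      exact (hm1 ⟨u, hVU hu⟩).1 hu
    · intro hu
      have huU : u ∈ U := by
        have := U.mul_mem (U.mul_mem (U.inv_mem m.2) (hVU hu)) m.2
        have e : (m : G)⁻¹ * ((m : G) * u * (m : G)⁻¹) * (m : G) = u := by group
        rwa [e] at this
      exact (hm1 ⟨u, huU⟩).2 hu
  have hVV' : V ≤ V' := le_inf hVU Subgroup.le_normalizer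
  have hV'U : V' ≤ U := inf_le_left
  have hV'p : IsPGroup p ↥V' := hU.to_le hV'U
  set C := Subgroup.centralizer (V : Set G) with hC
  have hCn : ∀ v ∈ V', ∀ c ∈ C, v * c * v⁻¹ ∈ C := by
    intro v hv c hc
    rw [Subgroup.mem_centralizer_iff] at hc ⊢
    intro y hy
    have h1 : v⁻¹ * y * v ∈ V := by
      have := (Subgroup.mem_normalizer_iff.1 (inv_mem hv.2) y).1 hy
      rwa [inv_inv] at this
    have h2 := hc _ h1
    calc y * (v * c * v⁻¹) = v * ((v⁻¹ * y * v) * c) * v⁻¹ := by group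
      _ = v * (c * (v⁻¹ * y * v)) * v⁻¹ := by rw [h2]
      _ = v * c * v⁻¹ * y := by group
  -- the product
  let X : Subgroup G := {
    carrier := {x | ∃ c ∈ C, ∃ v ∈ V', x = c * v}
    one_mem' := ⟨1, C.one_mem, 1, V'.one_mem, (mul_one 1).symm⟩
    mul_mem' := by
      rintro _ _ ⟨c, hc, v, hv, rfl⟩ ⟨d, hd, w, hw, rfl⟩
      refine ⟨c * (v * d * v⁻¹), C.mul_mem hc (hCn v hv d hd), v * w, V'.mul_mem hv hw, by group⟩
    inv_mem' := by
      rintro _ ⟨c, hc, v, hv, rfl⟩
      refine ⟨v⁻¹ * c⁻¹ * v⁻¹⁻¹, hCn _ (V'.inv_mem hv) _ (C.inv_mem hc), v⁻¹, V'.inv_mem hv, by group⟩ }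
  have hCX : C ≤ X := fun c hc => ⟨c, hc, 1, V'.one_mem, (mul_one c).symm⟩
  have hVX : V' ≤ X := fun v hv => ⟨1, C.one_mem, v, hv, (one_mul v).symm⟩
  have hCXn : (C.subgroupOf X).Normal := by
    refine ⟨?_⟩
    rintro ⟨d, hdX⟩ hd ⟨_, c, hc, v, hv, rfl⟩
    change c * v * d * (c * v)⁻¹ ∈ C
    have h1 := hCn v hv d hd
    have : c * v * d * (c * v)⁻¹ = c * (v * d * v⁻¹) * c⁻¹ := by group
    rw [this]
    exact C.mul_mem (C.mul_mem hc h1) (C.inv_mem hc)
  have hXc : CharP p ↥X := by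
    refine charP_ext (C.subgroupOf X) (hV.congr (Subgroup.subgroupOfEquivOfLe hCX).symm) ?_
    rintro ⟨_, c, hc, v, hv, rfl⟩
    obtain ⟨k, hk⟩ := hV'p ⟨v, hv⟩
    have hk' : v ^ p ^ k = 1 := congrArg Subtype.val hk
    refine ⟨k, ?_⟩
    change (c * v) ^ p ^ k ∈ C
    have key : ∀ m : ℕ, (c * v) ^ m * (v ^ m)⁻¹ ∈ C := by
      intro m
      induction m with
      | zero => simpa using C.one_mem
      | succ m ihm =>
        have h1 : (c * v) ^ (m + 1) * (v ^ (m + 1))⁻¹ = ((c * v) ^ m * (v ^ m)⁻¹) * (v ^ m * c * (v ^ m)⁻¹) := by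
          rw [pow_succ, pow_succ' v]; group
        rw [h1]
        exact C.mul_mem ihm (hCn _ (V'.pow_mem hv m) c hc)
    have h2 := key (p ^ k)
    rwa [hk', inv_one, mul_one] at h2
  have hC'X : Subgroup.centralizer (V' : Set G) ≤ X := (Subgroup.centralizer_le hVV').trans hCX
  have h1 := charP_cent_sub V' hV'p X hVX hXc hC'X
  refine ih (V'.relIndex U) ?_ V' hV'U rfl h1
  have h2 := Subgroup.relIndex_mul_relIndex V V' U hVV' hV'U
  rw [← hn, ← h2]
  have h3 : 1 < V.relIndex V' := by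
    have h4 : V.relIndex V' ≠ 1 := by
      intro h
      rw [Subgroup.relIndex_eq_one] at h
      exact hm2 (h hmV')
    have h5 : V.relIndex V' ≠ 0 := Subgroup.index_ne_zero_of_finite (H := V.subgroupOf V')
    omega
  have h6 : 0 < V'.relIndex U := Nat.pos_of_ne_zero (Subgroup.index_ne_zero_of_finite (H := V'.subgroupOf U))
  nlinarith

end CfsgL.CharPX
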