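import Mathlib
import Cfsg.Agent.H3.HHFrat
import Cfsg.Agent.H1.ActStab
import Cfsg.Agent.H1.Frat
import Cfsg.Agent.H1.Fit

/-! Sylow subgroups with cyclic derived group in solvable groups of odd order. -/

set_option autoImplicit false
open Cfsg Subgroup

open scoped commutatorElement

namespace CfsgL.CycDer

universe u

variable {G : Type u} [Group G]

theorem core [Finite G] (hodd : Odd (Nat.card G)) (hsol : Group.IsSolvable G) {p : ℕ} [hp : Fact p.Prime] (hp2 : p ≠ 2)
    (hO : pPrimeCore p G = ⊥) (S : Sylow p G) (hS : IsCyclic ↥(⁅(S : Subgroup G), (S : Subgroup G)⁆ : Subgroup G)) :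
    (S : Subgroup G) ≤ pCore p G := by
  have hps : IsPSolvable p G := CfsgH1.isPSolvable_of_isSolvable _ G rfl hsol
  have hPn : (pCore p G).Normal := inferInstance
  have hPp : IsPGroup p (pCore p G) := CfsgH2.isPGroup_pCore p
  haveI hFn : ((frattini (pCore p G)).map (pCore p G).subtype).Normal := inferInstance
  obtain ⟨F, hFd⟩ : ∃ F : Subgroup G, F = (frattini (pCore p G)).map (pCore p G).subtype := ⟨_, rfl⟩
  have hPS : pCore p G ≤ (S : Subgroup G) := CfsgH1.pCore_le_sylow S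
  have hab : ∀ T : Sylow 2 G, IsMulCommutative T := by
    intro T
    haveI : Fact (Nat.Prime 2) := ⟨Nat.prime_two⟩
    obtain ⟨n, hn⟩ := IsPGroup.iff_card.1 T.2
    have h1 : Nat.card (T : Subgroup G) ∣ Nat.card G := (T : Subgroup G).card_subgroup_dvd_card
    have h2 : n = 0 := by
      by_contra h
      rw [hn] at h1
      exact (Nat.not_even_iff_odd.2 hodd) (even_iff_two_dvd.2 ((dvd_pow_self 2 h).trans h1))
    rw [h2, pow_zero] at hn
    haveI : Subsingleton ↥(T : Subgroup G) := (Nat.card_eq_one_iff_unique.1 hn).1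
    exact ⟨⟨fun a b => Subsingleton.elim (α := ↥(T : Subgroup G)) _ _⟩⟩
  have hst := (CfsgH1.isActionPStable_of_free hp2 (CfsgH1.sl2Free_of_abelian hp2 hab)).2.1
  obtain ⟨D, hDd⟩ : ∃ D : Subgroup G, D = ⁅pCore p G, (S : Subgroup G)⁆ := ⟨_, rfl⟩
  have hDP : D ≤ pCore p G := by rw [hDd]; exact Subgroup.commutator_le_left _ _
  have hDS : D ≤ ⁅(S : Subgroup G), (S : Subgroup G)⁆ := by rw [hDd]; exact Subgroup.commutator_mono hPS le_rfl
  have hDcyc : IsCyclic ↥D := isCyclic_of_injective (Subgroup.inclusion hDS) (Subgroup.inclusion_injective hDS)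
  obtain ⟨⟨d, hdD⟩, hd⟩ := hDcyc.exists_generator
  have hDz : ∀ x ∈ D, ∃ j : ℤ, d ^ j = x := by
    intro x hx
    obtain ⟨j, hj⟩ := Subgroup.mem_zpowers_iff.1 (hd ⟨x, hx⟩)
    exact ⟨j, congrArg Subtype.val hj⟩
  have hDnorm : ∀ s ∈ (S : Subgroup G), s * d * s⁻¹ ∈ D := by
    intro s hs
    have h1 : ⁅d, s⁆ ∈ D := by rw [hDd]; exact Subgroup.commutator_mem_commutator (hDP hdD) hs
    have h2 : s * d * s⁻¹ = (⁅d, s⁆)⁻¹ * d := by rw [commutatorElement_def]; group
    rw [h2]
    exact D.mul_mem (D.inv_mem h1) hdD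
  have hpow : ∀ x ∈ pCore p G, x ^ p ∈ F := by
    intro x hx
    rw [hFd]
    exact ⟨⟨x, hx⟩ ^ p, CfsgH1.pow_mem_frattini hPp _, rfl⟩
  have hDSF : ⁅D, (S : Subgroup G)⁆ ≤ F := by
    rw [Subgroup.commutator_le]
    intro x hx s hs
    obtain ⟨j, rfl⟩ := hDz x hx
    obtain ⟨k, hk⟩ := hDz _ (hDnorm s hs)
    have hconj : ∀ i : ℤ, s * d ^ i * s⁻¹ = d ^ (k * i) := by
      intro i
      rw [← conj_zpow, ← hk, ← zpow_mul]
    have hcm : ⁅d ^ j, s⁆ = d ^ (j * (1 - k)) := by
      rw [commutatorElement_def, ← zpow_neg, mul_assoc, mul_assoc, ← mul_assoc s, hconj, ← zpow_add]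
      congr 1
      ring
    by_cases hd1 : d = 1
    · rw [hcm, hd1, one_zpow]; exact one_mem _
    have hpk : (p : ℤ) ∣ 1 - k := by
      obtain ⟨n, hn⟩ := S.2 ⟨s, hs⟩
      have hn' : s ^ p ^ n = 1 := congrArg Subtype.val hn
      have h1 : ∀ m : ℕ, s ^ m * d * (s ^ m)⁻¹ = d ^ (k ^ m) := by
        intro m
        induction m with
        | zero => simp
        | succ m ih =>
          have e : s ^ (m + 1) * d * (s ^ (m + 1))⁻¹ = s * (s ^ m * d * (s ^ m)⁻¹) * s⁻¹ := by
            rw [pow_succ']; simp only [mul_inv_rev, mul_assoc]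
          rw [e, ih, hconj, pow_succ']
      have h2 := h1 (p ^ n)
      rw [hn'] at h2
      have h3 : d ^ (k ^ p ^ n - 1) = 1 := by
        rw [zpow_sub, ← h2]; simp
      have h4 := orderOf_dvd_iff_zpow_eq_one.2 h3
      have h5 : p ∣ orderOf d := by
        obtain ⟨t, ht⟩ := IsPGroup.iff_orderOf.1 hPp ⟨d, hDP hdD⟩
        rw [Subgroup.orderOf_mk] at ht
        rw [ht]
        apply dvd_pow_self
        rintro rfl
        rw [pow_zero, orderOf_eq_one_iff] at ht
        exact hd1 ht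
      have h6 : (p : ℤ) ∣ k ^ p ^ n - 1 := (Int.natCast_dvd_natCast.2 h5).trans h4
      have h7 : ((k : ℤ) : ZMod p) ^ p ^ n = 1 := by
        have := (ZMod.intCast_zmod_eq_zero_iff_dvd _ p).2 h6
        push_cast at this
        exact sub_eq_zero.1 this
      have h8 : ((k : ℤ) : ZMod p) ^ p ^ n = ((k : ℤ) : ZMod p) := ZMod.pow_card_pow _
      rw [h8] at h7
      rw [← ZMod.intCast_zmod_eq_zero_iff_dvd]
      push_cast
      rw [h7, sub_self]
    obtain ⟨c, hc⟩ := hpk
    rw [hcm, hc]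
    have e : d ^ (j * ((p : ℤ) * c)) = (d ^ (j * c)) ^ p := by
      rw [← zpow_natCast, ← zpow_mul]
      congr 1
      ring
    rw [e]
    exact hpow _ ((pCore p G).zpow_mem (hDP hdD) _)
  intro s hs
  have hzS : Subgroup.zpowers s ≤ (S : Subgroup G) := by rw [Subgroup.zpowers_le]; exact hs
  have hq : ⁅⁅pCore p G, Subgroup.zpowers s⁆, Subgroup.zpowers s⁆ ≤ F := by
    refine le_trans (Subgroup.commutator_mono (Subgroup.commutator_mono le_rfl hzS) hzS) ?_
    rw [← hDd]; exact hDSF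
  subst hFd
  obtain ⟨E, hEn, hkE, ⟨k, hk⟩, hsE⟩ := hst s hq
  have hkP : sectionKernel (pCore p G) ((frattini (pCore p G)).map (pCore p G).subtype) ≤ pCore p G := by
    refine le_trans ?_ (CfsgH3.trivMod_le_pCore hps hO _ le_rfl)
    intro g hg y hy
    have h1 := (Subgroup.mem_centralizer_iff.1 hg) _ ⟨y, hy, rfl⟩
    rw [← QuotientGroup.eq_one_iff]
    have h2 : (QuotientGroup.mk' ((frattini (pCore p G)).map (pCore p G).subtype)) (g * y * g⁻¹ * y⁻¹) = 1 := by
      rw [map_mul, map_mul, map_mul, map_inv, map_inv, ← h1]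
      group
    exact h2
  have hkp : IsPGroup p (sectionKernel (pCore p G) ((frattini (pCore p G)).map (pCore p G).subtype)) := hPp.to_le hkP
  have hEp : IsPGroup p E := by
    obtain ⟨a, ha⟩ := IsPGroup.iff_card.1 hkp
    refine IsPGroup.of_card (n := a + k) ?_
    rw [← Subgroup.relIndex_bot_left E, ← Subgroup.relIndex_mul_relIndex ⊥ _ E bot_le hkE, Subgroup.relIndex_bot_left, ha, hk, pow_add]
  exact CfsgH2.le_pCore hEn hEp hsE

theorem main [Finite G] (hodd : Odd (Nat.card G)) (hsol : Group.IsSolvable G) {p : ℕ} [hp : Fact p.Prime] (S : Sylow p G)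
    (hS : IsCyclic (commutator ↥(S : Subgroup G))) : (pPrimeCore p G ⊔ (S : Subgroup G)).Normal := by
  by_cases hp2 : p = 2
  · have h1 : (⊤ : Subgroup G) ≤ pPrimeCore p G := by
      apply CfsgH2.le_pPrimeCore inferInstance
      rw [Subgroup.card_top, hp2]
      exact Nat.coprime_two_right.2 hodd
    have h2 : pPrimeCore p G ⊔ (S : Subgroup G) = ⊤ := top_le_iff.1 (h1.trans le_sup_left)
    rw [h2]; infer_instance
  obtain ⟨N, hNd⟩ : ∃ N : Subgroup G, N = pPrimeCore p G := ⟨_, rfl⟩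
  haveI hNn : N.Normal := by rw [hNd]; infer_instance
  have hO : pPrimeCore p (G ⧸ N) = ⊥ := by subst hNd; exact CfsgH2.pPrimeCore_quotient_pPrimeCore p
  have hf : Function.Surjective (QuotientGroup.mk' N) := QuotientGroup.mk'_surjective N
  have hodd' : Odd (Nat.card (G ⧸ N)) := by
    have h1 : Nat.card (G ⧸ N) ∣ Nat.card G := Subgroup.card_quotient_dvd_card N
    exact hodd.of_dvd_nat h1
  haveI := hsol
  have hsol' : Group.IsSolvable (G ⧸ N) := inferInstance
  have hS' : IsCyclic ↥(⁅((S.mapSurjective hf : Sylow p (G ⧸ N)) : Subgroup (G ⧸ N)), ((S.mapSurjective hf : Sylow p (G ⧸ N)) : Subgroup (G ⧸ N))⁆ : Subgroup (G ⧸ N)) := by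
    have h1 : ((S.mapSurjective hf : Sylow p (G ⧸ N)) : Subgroup (G ⧸ N)) = (S : Subgroup G).map (QuotientGroup.mk' N) := rfl
    rw [h1, ← Subgroup.map_commutator]
    have h2 : ⁅(S : Subgroup G), (S : Subgroup G)⁆ = (commutator ↥(S : Subgroup G)).map (S : Subgroup G).subtype := by
      rw [_root_.commutator_def, Subgroup.map_commutator, ← MonoidHom.range_eq_map, Subgroup.range_subtype]
    rw [h2, Subgroup.map_map]
    exact isCyclic_of_surjective (((QuotientGroup.mk' N).comp (S : Subgroup G).subtype).subgroupMap (commutator ↥(S : Subgroup G))) (MonoidHom.subgroupMap_surjective _ _)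
  have h := core hodd' hsol' hp2 hO (S.mapSurjective hf) hS'
  have h3 : (S : Subgroup G).map (QuotientGroup.mk' N) = pCore p (G ⧸ N) := 
    le_antisymm h (CfsgH1.pCore_le_sylow (S.mapSurjective hf))
  have h4 : pPrimeCore p G ⊔ (S : Subgroup G) = (pCore p (G ⧸ N)).comap (QuotientGroup.mk' N) := by
    rw [← h3, Subgroup.comap_map_eq, QuotientGroup.ker_mk', hNd, sup_comm]
  rw [h4]
  infer_instance

end CfsgL.CycDer
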