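import Cfsg.Agent.L.Misc.ScnCon
import Cfsg.Agent.H4.DihA
import Cfsg.Agent.H3.Frob
import Mathlib.GroupTheory.SpecificGroups.Dihedral

set_option autoImplicit false
open Cfsg Subgroup

namespace CfsgL.DihAct

universe u v

variable {G : Type u} [Group G]

/-- odd automorphisms of subgroups of dihedral 2-groups -/
theorem dih_act [Finite G] {U : Subgroup G} (hU : IsPGroup 2 ↥U) {n : ℕ} (φ : ↥U →* DihedralGroup n) (hφ : Function.Injective φ)
    {x : G} (hx : Odd (orderOf x)) (hxU : x ∈ Subgroup.normalizer (U : Set G)) :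
    (∀ u ∈ U, x * u = u * x) ∨ (Nat.card ↥U ≤ 4 ∧ ∀ u ∈ U, u * u = 1) := by
  classical
  have hconj : ∀ u ∈ U, x * u * x⁻¹ ∈ U := fun u hu => (Subgroup.mem_normalizer_iff.1 hxU u).1 hu
  -- the rotations
  let A : Subgroup ↥U := {
    carrier := {u | ∃ i, φ u = DihedralGroup.r i}
    one_mem' := ⟨0, by rw [map_one]; rfl⟩
    mul_mem' := by
      rintro a b ⟨i, hi⟩ ⟨j, hj⟩
      exact ⟨i + j, by rw [map_mul, hi, hj, DihedralGroup.r_mul_r]⟩
    inv_mem' := by
      rintro a ⟨i, hi⟩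
      exact ⟨-i, by rw [map_inv, hi]; rfl⟩ }
  have hsq : ∀ u : ↥U, u ∉ A → u * u = 1 := by
    intro u hu
    apply hφ
    rw [map_mul, map_one]
    rcases h : φ u with i | i
    · exact absurd ⟨i, h⟩ hu
    · exact DihedralGroup.sr_mul_self i
  have hA2 : ∀ u v : ↥U, u ∉ A → v ∉ A → u * v ∈ A := by
    intro u v hu hv
    rcases h : φ u with i | i
    · exact absurd ⟨i, h⟩ hu
    rcases h' : φ v with j | j
    · exact absurd ⟨j, h'⟩ hv
    exact ⟨j - i, by rw [map_mul, h, h', DihedralGroup.sr_mul_sr]⟩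
  have hAc : IsCyclic ↥A := by
    -- embed in `ℤ/n`
    let f : DihedralGroup n → ZMod n := fun d => match d with
      | DihedralGroup.r i => i
      | DihedralGroup.sr i => i
    have hf : ∀ a : ↥A, φ a = DihedralGroup.r (f (φ a)) := by
      rintro ⟨a, i, hi⟩
      change φ a = DihedralGroup.r (f (φ a))
      rw [hi]
    let ψ : ↥A →* Multiplicative (ZMod n) := {
      toFun := fun a => Multiplicative.ofAdd (f (φ a))
      map_one' := by
        have h2 : φ ((1 : ↥A) : ↥U) = DihedralGroup.r 0 := by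
          change φ 1 = _; rw [map_one]; rfl
        rw [h2]; rfl
      map_mul' := by
        intro a b
        have h2 : φ ((a * b : ↥A) : ↥U) = DihedralGroup.r (f (φ a) + f (φ b)) := by
          have h3 : φ ((a * b : ↥A) : ↥U) = φ a * φ b := map_mul φ _ _
          rw [h3, ← DihedralGroup.r_mul_r, ← hf a, ← hf b]
        rw [h2]; rfl }
    have hψ : Function.Injective ψ := by
      intro a b hab
      have h1 : f (φ a) = f (φ b) := Multiplicative.ofAdd.injective hab
      apply Subtype.ext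
      apply hφ
      rw [hf a, hf b, h1]
    exact isCyclic_of_injective ψ hψ
  set B := A.map U.subtype with hB
  have hBU : B ≤ U := Subgroup.map_subtype_le _
  have hBp : IsPGroup 2 ↥B := hU.to_le hBU
  have hBc : IsCyclic ↥B := isCyclic_of_surjective (A.equivMapOfInjective U.subtype U.subtype_injective) (MulEquiv.surjective _)
  have hmemB : ∀ u : ↥U, (u : G) ∈ B ↔ u ∈ A := by
    intro u
    constructor
    · rintro ⟨a, ha, hau⟩
      have : a = u := Subtype.ext hau
      rwa [← this]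
    · intro h; exact ⟨u, h, rfl⟩
  have hcard : Nat.card ↥U ≤ 2 * Nat.card ↥B := by
    have h1 : A.index ≤ 2 := by
      by_cases hall : A = ⊤
      · rw [hall, Subgroup.index_top]; norm_num
      · obtain ⟨a, ha⟩ : ∃ a, a ∉ A := by
          by_contra hcon
          push Not at hcon
          exact hall (Subgroup.eq_top_iff' A |>.2 hcon)
        rw [Subgroup.index_eq_two_iff.2 ⟨a, fun b => ?_⟩]
        by_cases hb : b ∈ A
        · right
          refine ⟨hb, fun h => ha ?_⟩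
          have := A.mul_mem (A.inv_mem hb) h
          rwa [inv_mul_cancel_left] at this
        · left
          exact ⟨hA2 b a hb ha, hb⟩
    rw [hB, Subgroup.card_map_of_injective U.subtype_injective, ← A.card_mul_index, mul_comm]
    exact Nat.mul_le_mul_right _ h1
  by_cases hsmall : ∀ b ∈ B, b * b = 1
  · -- `|B| ≤ 2`
    have hB2 : Nat.card ↥B ≤ 2 := by
      obtain ⟨c, hc⟩ := hBc.exists_generator
      have h1 : orderOf c = Nat.card ↥B := orderOf_eq_card_of_forall_mem_zpowers hc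
      have h2 : c ^ 2 = 1 := by
        rw [pow_two]; exact Subtype.ext (hsmall c c.2)
      rw [← h1]
      exact orderOf_le_of_pow_eq_one (by norm_num) h2
    right
    refine ⟨by omega, ?_⟩
    intro u hu
    by_cases h : (⟨u, hu⟩ : ↥U) ∈ A
    · exact hsmall u ((hmemB ⟨u, hu⟩).2 h)
    · exact congrArg Subtype.val (hsq _ h)
  · left
    push Not at hsmall
    obtain ⟨b, hb, hbb⟩ := hsmall
    obtain ⟨c, hc⟩ := hBc.exists_generator
    have hcc : (c : G) * c ≠ 1 := by
      intro h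
      apply hbb
      obtain ⟨k, hk⟩ := Subgroup.mem_zpowers_iff.1 (hc ⟨b, hb⟩)
      have hk' : (c : G) ^ k = b := congrArg Subtype.val hk
      rw [← hk', ← zpow_add, ← two_mul, zpow_mul, zpow_two, h, one_zpow]
    have hcB : x * (c : G) * x⁻¹ ∈ B := by
      have h1 := hconj _ (hBU c.2)
      by_contra hcon
      have h2 : (⟨_, h1⟩ : ↥U) ∉ A := fun h => hcon ((hmemB ⟨_, h1⟩).2 h)
      have h3 : x * (c : G) * x⁻¹ * (x * (c : G) * x⁻¹) = 1 := congrArg Subtype.val (hsq _ h2)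
      apply hcc
      have h4 : x⁻¹ * (x * (c : G) * x⁻¹ * (x * (c : G) * x⁻¹)) * x = (c : G) * c := by group
      rw [← h4, h3]; group
    have hBx : ∀ d ∈ B, x * d * x⁻¹ ∈ B := by
      intro d hd
      obtain ⟨k, hk⟩ := Subgroup.mem_zpowers_iff.1 (hc ⟨d, hd⟩)
      have hk' : (c : G) ^ k = d := congrArg Subtype.val hk
      rw [← hk', ← conj_zpow]
      exact B.zpow_mem hcB k
    have hxN : x ∈ Subgroup.normalizer (B : Set G) := by
      have h2 : ∀ k : ℕ, ∀ d ∈ B, x ^ k * d * (x ^ k)⁻¹ ∈ B := by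
        intro k
        induction k with
        | zero => intro d hd; simpa using hd
        | succ k ih =>
          intro d hd
          have : x ^ (k + 1) * d * (x ^ (k + 1))⁻¹ = x * (x ^ k * d * (x ^ k)⁻¹) * x⁻¹ := by rw [pow_succ']; group
          rw [this]; exact hBx _ (ih d hd)
      rw [Subgroup.mem_normalizer_iff]
      intro d
      refine ⟨hBx d, fun hd => ?_⟩
      have h3 := h2 (orderOf x - 1) _ hd
      have h4 : x ^ (orderOf x - 1) = x⁻¹ := by
        apply eq_inv_of_mul_eq_one_left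
        rw [← pow_succ, Nat.sub_add_cancel (orderOf_pos x), pow_orderOf_eq_one]
      rw [h4] at h3
      have : x⁻¹ * (x * d * x⁻¹) * x⁻¹⁻¹ = d := by group
      rwa [this] at h3
    have hcent := CfsgH4.odd_centralizes_cyclic hBc hBp hxN hx
    exact CfsgL.ScnCon.cent_index_two hU hBU hcard hx hconj hcent

/-- embedding a 2-subgroup in the Sylow subgroup -/
theorem exists_emb [Finite G] (S : Sylow 2 G) {n : ℕ} (e : (S : Subgroup G) ≃* DihedralGroup n) {U : Subgroup G} (hU : IsPGroup 2 ↥U) :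
    ∃ (g : G) (φ : ↥U →* DihedralGroup n), (∀ u ∈ U, g * u * g⁻¹ ∈ (S : Subgroup G)) ∧ Function.Injective φ := by
  haveI : Fact (Nat.Prime 2) := ⟨Nat.prime_two⟩
  obtain ⟨Q, hQ⟩ := hU.exists_le_sylow
  obtain ⟨g, hg⟩ := MulAction.exists_smul_eq G Q S
  have h1 : ∀ u ∈ U, g * u * g⁻¹ ∈ (S : Subgroup G) := by
    intro u hu
    rw [← hg]
    exact ⟨u, hQ hu, rfl⟩
  let ψ : ↥U →* ↥(S : Subgroup G) := {
    toFun := fun u => ⟨g * u * g⁻¹, h1 u u.2⟩
    map_one' := by apply Subtype.ext; change g * 1 * g⁻¹ = 1; group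
    map_mul' := by intro a b; apply Subtype.ext; change g * (a * b) * g⁻¹ = g * a * g⁻¹ * (g * b * g⁻¹); group }
  refine ⟨g, e.toMonoidHom.comp ψ, h1, ?_⟩
  apply e.injective.comp
  intro a b hab
  have h2 : g * (a : G) * g⁻¹ = g * (b : G) * g⁻¹ := congrArg Subtype.val hab
  exact Subtype.ext (mul_left_cancel (mul_right_cancel h2))

theorem sup_pow {p : ℕ} {C V : Subgroup G} (hCn : ∀ v ∈ V, ∀ c ∈ C, v * c * v⁻¹ ∈ C) (hV : IsPGroup p ↥V) :
    ∀ x ∈ C ⊔ V, ∃ k : ℕ, x ^ p ^ k ∈ C := by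
  let X : Subgroup G := {
    carrier := {x | ∃ c ∈ C, ∃ v ∈ V, x = c * v}
    one_mem' := ⟨1, C.one_mem, 1, V.one_mem, (mul_one 1).symm⟩
    mul_mem' := by
      rintro _ _ ⟨c, hc, v, hv, rfl⟩ ⟨d, hd, w, hw, rfl⟩
      refine ⟨c * (v * d * v⁻¹), C.mul_mem hc (hCn v hv d hd), v * w, V.mul_mem hv hw, by group⟩
    inv_mem' := by
      rintro _ ⟨c, hc, v, hv, rfl⟩
      refine ⟨v⁻¹ * c⁻¹ * v⁻¹⁻¹, hCn _ (V.inv_mem hv) _ (C.inv_mem hc), v⁻¹, V.inv_mem hv, by group⟩ }
  have hle : C ⊔ V ≤ X := sup_le (fun c hc => ⟨c, hc, 1, V.one_mem, (mul_one c).symm⟩)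
    (fun v hv => ⟨1, C.one_mem, v, hv, (one_mul v).symm⟩)
  intro x hx
  obtain ⟨c, hc, v, hv, rfl⟩ := hle hx
  obtain ⟨k, hk⟩ := hV ⟨v, hv⟩
  have hk' : v ^ p ^ k = 1 := congrArg Subtype.val hk
  refine ⟨k, ?_⟩
  have key : ∀ m : ℕ, (c * v) ^ m * (v ^ m)⁻¹ ∈ C := by
    intro m
    induction m with
    | zero => simpa using C.one_mem
    | succ m ihm =>
      have h1 : (c * v) ^ (m + 1) * (v ^ (m + 1))⁻¹ = ((c * v) ^ m * (v ^ m)⁻¹) * (v ^ m * c * (v ^ m)⁻¹) := by
        rw [pow_succ, pow_succ' v]; group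
      rw [h1]
      exact C.mul_mem ihm (hCn _ (V.pow_mem hv m) c hc)
  have h2 := key (p ^ k)
  rwa [hk', inv_one, mul_one] at h2

theorem mem_of_pow_mem {C : Subgroup G} {x : G} (hx : Odd (orderOf x)) {k : ℕ} (h : x ^ 2 ^ k ∈ C) : x ∈ C := by
  have hc : (2 ^ k).Coprime (orderOf x) := Nat.Coprime.pow_left k (Nat.coprime_two_left.2 hx)
  obtain ⟨m, hm⟩ := exists_pow_eq_self_of_coprime hc
  rw [← hm]
  exact C.pow_mem h m

end CfsgL.DihAct
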