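import Mathlib
import Cfsg.Prelude.Def_Transfer

/-!
Automorphism groups of extraspecial 2-groups: the non-splitting over inner automorphisms.
-/

set_option autoImplicit false
set_option maxHeartbeats 400000

namespace CfsgL.ExtraTwo

structure Dat (Q : Type*) [Group Q] (z : Q) : Prop where
  ne : z ≠ 1
  zz : z * z = 1
  cen : ∀ x : Q, x * z = z * x
  com : ∀ a b : Q, a * b = b * a ∨ a * b = b * a * z

variable {Q : Type*} [Group Q] {z : Q}

theorem Dat.mul_nn (D : Dat Q z) {a b e : Q} (ha : ¬ a * e = e * a) (hb : ¬ b * e = e * b) :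
    (a * b) * e = e * (a * b) := by
  have h1 : a * e = e * a * z := (D.com a e).resolve_left ha
  have h2 : b * e = e * b * z := (D.com b e).resolve_left hb
  calc (a * b) * e = a * (b * e) := mul_assoc _ _ _
    _ = a * (e * b * z) := by rw [h2]
    _ = (a * e) * (b * z) := by simp only [mul_assoc]
    _ = e * a * z * (b * z) := by rw [h1]
    _ = e * a * (z * b) * z := by simp only [mul_assoc]
    _ = e * a * (b * z) * z := by rw [D.cen b]
    _ = e * (a * b) * (z * z) := by simp only [mul_assoc]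
    _ = e * (a * b) := by rw [D.zz, mul_one]

theorem mul_cc {a b e : Q} (ha : a * e = e * a) (hb : b * e = e * b) :
    (a * b) * e = e * (a * b) := by
  rw [mul_assoc, hb, ← mul_assoc, ha, mul_assoc]

theorem mul_cn {a b e : Q} (ha : a * e = e * a) (hb : ¬ b * e = e * b) :
    ¬ (a * b) * e = e * (a * b) := by
  intro h
  apply hb
  have h1 : a * (b * e) = a * (e * b) := by
    rw [← mul_assoc, h, ← mul_assoc, ← ha, mul_assoc]
  exact mul_left_cancel h1

theorem mul_nc {a b e : Q} (ha : ¬ a * e = e * a) (hb : b * e = e * b) :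
    ¬ (a * b) * e = e * (a * b) := by
  intro h
  apply ha
  have h1 : (a * e) * b = (e * a) * b := by
    rw [mul_assoc, ← hb, ← mul_assoc, h, mul_assoc]
  exact mul_right_cancel h1

theorem sym {a e : Q} (h : ¬ a * e = e * a) : ¬ e * a = a * e := fun h' => h h'.symm

/-- the analogue on the right-hand side -/
theorem Dat.mul_nn' (D : Dat Q z) {a b e : Q} (ha : ¬ e * a = a * e) (hb : ¬ e * b = b * e) :
    e * (a * b) = (a * b) * e := (D.mul_nn (sym ha) (sym hb)).symm

theorem mul_cc' {a b e : Q} (ha : e * a = a * e) (hb : e * b = b * e) :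
    e * (a * b) = (a * b) * e := (mul_cc ha.symm hb.symm).symm

theorem Dat.two (D : Dat Q z) {c d : Q} (hd : ¬ ∀ b, b * d = d * b)
    (hcd : ¬ ∀ b, b * (c * d) = (c * d) * b) : ∃ w, w * c = c * w ∧ ¬ w * d = d * w := by
  push Not at hd hcd
  obtain ⟨a, ha⟩ := hd
  by_cases hac : a * c = c * a
  · exact ⟨a, hac, ha⟩
  obtain ⟨b, hb⟩ := hcd
  by_cases hbc : b * c = c * b
  · by_cases hbd : b * d = d * b
    · exact absurd (mul_cc' hbc hbd) hb
    · exact ⟨b, hbc, hbd⟩
  · by_cases hbd : b * d = d * b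
    · exact ⟨a * b, D.mul_nn hac hbc, mul_nc ha hbd⟩
    · exact absurd (D.mul_nn' hbc hbd) hb

theorem Dat.three (D : Dat Q z) {b c d : Q} (hd : ¬ ∀ t, t * d = d * t)
    (hbd : ¬ ∀ t, t * (b * d) = (b * d) * t)
    (hcd : ¬ ∀ t, t * (c * d) = (c * d) * t)
    (hbcd : ¬ ∀ t, t * (b * (c * d)) = (b * (c * d)) * t) :
    ∃ w, w * b = b * w ∧ w * c = c * w ∧ ¬ w * d = d * w := by
  obtain ⟨w1, h1, h2⟩ := D.two hd hbd
  by_cases h3 : w1 * c = c * w1
  · exact ⟨w1, h1, h3, h2⟩
  obtain ⟨w2, h4, h5⟩ := D.two hcd hbcd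
  by_cases h6 : w2 * c = c * w2
  · by_cases h7 : w2 * d = d * w2
    · exact absurd (mul_cc' h6 h7) h5
    · exact ⟨w2, h4, h6, h7⟩
  · by_cases h7 : w2 * d = d * w2
    · exact ⟨w1 * w2, mul_cc h1 h4, D.mul_nn h3 h6, mul_nc h2 h7⟩
    · exact absurd (D.mul_nn' h6 h7) h5

open Classical in
/-- the transvection-like automorphism -/
noncomputable def fu (D : Dat Q z) (u : Q) (hu : u * u = z) : Q →* Q where
  toFun x := if x * u = u * x then x else x * u
  map_one' := by simp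
  map_mul' a b := by
    by_cases ha : a * u = u * a
    · by_cases hb : b * u = u * b
      · rw [if_pos ha, if_pos hb, if_pos (mul_cc ha hb)]
      · rw [if_pos ha, if_neg hb, if_neg (mul_cn ha hb), mul_assoc]
    · by_cases hb : b * u = u * b
      · rw [if_neg ha, if_pos hb, if_neg (mul_nc ha hb), mul_assoc, hb, ← mul_assoc]
      · rw [if_neg ha, if_neg hb, if_pos (D.mul_nn ha hb)]
        have h2 : u * b = b * u * z := (D.com u b).resolve_left (sym hb)
        symm
        calc a * u * (b * u) = a * (u * b) * u := by simp only [mul_assoc]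
          _ = a * (b * u * z) * u := by rw [h2]
          _ = a * b * u * (z * u) := by simp only [mul_assoc]
          _ = a * b * u * (u * z) := by rw [D.cen u]
          _ = a * b * (u * u) * z := by simp only [mul_assoc]
          _ = a * b * z * z := by rw [hu]
          _ = a * b * (z * z) := by simp only [mul_assoc]
          _ = a * b := by rw [D.zz, mul_one]

open Classical in
theorem fu_c (D : Dat Q z) {u : Q} (hu : u * u = z) {x : Q} (h : x * u = u * x) :
    fu D u hu x = x := by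
  change (if x * u = u * x then x else x * u) = x
  rw [if_pos h]

open Classical in
theorem fu_n (D : Dat Q z) {u : Q} (hu : u * u = z) {x : Q} (h : ¬ x * u = u * x) :
    fu D u hu x = x * u := by
  change (if x * u = u * x then x else x * u) = x * u
  rw [if_neg h]

theorem fu_fu (D : Dat Q z) {u : Q} (hu : u * u = z) (x : Q) :
    fu D u hu (fu D u hu x) = u * x * u⁻¹ := by
  by_cases h : x * u = u * x
  · rw [fu_c D hu h, fu_c D hu h, ← h, mul_inv_cancel_right]
  · have h' : ¬ (x * u) * u = u * (x * u) := mul_nc h rfl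
    rw [fu_n D hu h, fu_n D hu h']
    have h2 : u * x = x * u * z := (D.com u x).resolve_left (sym h)
    rw [h2, mul_assoc x u u, hu, mul_assoc (x * u) z, mul_assoc x u, ← mul_assoc u z, D.cen u,
      mul_assoc z u, mul_inv_cancel, mul_one]

theorem fu_bij (D : Dat Q z) {u : Q} (hu : u * u = z) : Function.Bijective (fu D u hu) := by
  have h : Function.Bijective ((fu D u hu) ∘ (fu D u hu)) := by
    have : ((fu D u hu) ∘ (fu D u hu)) = (MulAut.conj u : Q → Q) := by
      funext x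
      rw [Function.comp_apply, fu_fu, MulAut.conj_apply]
    rw [this]
    exact (MulAut.conj u).bijective
  exact ⟨Function.Injective.of_comp h.1, Function.Surjective.of_comp h.2⟩

/-- the automorphism -/
noncomputable def au (D : Dat Q z) (u : Q) (hu : u * u = z) : MulAut Q :=
  MulEquiv.ofBijective (fu D u hu) (fu_bij D hu)

theorem au_c (D : Dat Q z) {u : Q} (hu : u * u = z) {x : Q} (h : x * u = u * x) :
    au D u hu x = x := fu_c D hu h

theorem au_n (D : Dat Q z) {u : Q} (hu : u * u = z) {x : Q} (h : ¬ x * u = u * x) :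
    au D u hu x = x * u := fu_n D hu h

theorem au_sq (D : Dat Q z) {u : Q} (hu : u * u = z) : au D u hu * au D u hu = MulAut.conj u := by
  ext x
  change fu D u hu (fu D u hu x) = u * x * u⁻¹
  exact fu_fu D hu x

theorem au_comm (D : Dat Q z) {u v : Q} (hu : u * u = z) (hv : v * v = z) (huv : u * v = v * u) :
    au D u hu * au D v hv = au D v hv * au D u hu := by
  ext x
  change au D u hu (au D v hv x) = au D v hv (au D u hu x)
  by_cases h1 : x * u = u * x
  · by_cases h2 : x * v = v * x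
    · rw [au_c D hv h2, au_c D hu h1, au_c D hv h2]
    · have h3 : (x * v) * u = u * (x * v) := mul_cc h1 huv.symm
      rw [au_n D hv h2, au_c D hu h1, au_c D hu h3, au_n D hv h2]
  · by_cases h2 : x * v = v * x
    · have h3 : (x * u) * v = v * (x * u) := mul_cc h2 huv
      rw [au_c D hv h2, au_n D hu h1, au_c D hv h3]
    · have h3 : ¬ (x * v) * u = u * (x * v) := mul_nc h1 huv.symm
      have h4 : ¬ (x * u) * v = v * (x * u) := mul_nc h2 huv
      rw [au_n D hv h2, au_n D hu h1, au_n D hu h3, au_n D hv h4, mul_assoc, mul_assoc, huv]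

/-- `ζ` is a central element of the designated subgroup of order 2 -/
def Zt (z ζ : Q) : Prop := ζ = 1 ∨ ζ = z

theorem Dat.zt_cen (D : Dat Q z) {ζ : Q} (h : Zt z ζ) (x : Q) : x * ζ = ζ * x := by
  rcases h with rfl | rfl
  · rw [mul_one, one_mul]
  · exact D.cen x

theorem Dat.zt_sq (D : Dat Q z) {ζ : Q} (h : Zt z ζ) : ζ * ζ = 1 := by
  rcases h with rfl | rfl
  · exact mul_one 1
  · exact D.zz

theorem Dat.zt_mul (D : Dat Q z) {ζ η : Q} (h : Zt z ζ) (h' : Zt z η) : Zt z (ζ * η) := by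
  rcases h with rfl | rfl
  · rw [one_mul]; exact h'
  · rcases h' with rfl | rfl
    · right; exact mul_one _
    · left; exact D.zz

theorem Dat.near (D : Dat Q z) (s x : Q) : ∃ ζ, Zt z ζ ∧ s⁻¹ * x * s = x * ζ := by
  rcases D.com x s with h | h
  · exact ⟨1, Or.inl rfl, by rw [mul_assoc, h, mul_one, inv_mul_cancel_left]⟩
  · exact ⟨z, Or.inr rfl, by rw [mul_assoc, h, mul_assoc, inv_mul_cancel_left]⟩

theorem no_split (D : Dat Q z) (L : Subgroup (MulAut Q)) (Nn : ((MulAut.conj : Q →* MulAut Q).range).Normal)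
    (hL : ∀ f ∈ L, f ∈ (MulAut.conj : Q →* MulAut Q).range → f = 1)
    (hT : ∀ f : MulAut Q, ∃ s : Q, ∃ a ∈ L, MulAut.conj s * a = f)
    (haz : ∀ f : MulAut Q, f z = z)
    {u1 u2 u3 v x y : Q} (q1 : u1 * u1 = z) (q2 : u2 * u2 = z) (q3 : u3 * u3 = z)
    (c12 : u1 * u2 = u2 * u1) (c13 : u1 * u3 = u3 * u1) (c23 : u2 * u3 = u3 * u2)
    (v1 : ¬ v * u1 = u1 * v) (v2 : ¬ v * u2 = u2 * v) (v3 : v * u3 = u3 * v)
    (x1 : x * u1 = u1 * x) (x2 : ¬ x * u2 = u2 * x)
    (y1 : y * u1 = u1 * y) (y2 : y * u2 = u2 * y) (y3 : ¬ y * u3 = u3 * y) : False := by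
  have q4 : (u1 * u2 * u3) * (u1 * u2 * u3) = z := by
    have e : (u1 * u2 * u3) * (u1 * u2 * u3) = (u1 * u1) * ((u2 * u2) * (u3 * u3)) := by
      calc (u1 * u2 * u3) * (u1 * u2 * u3) = u1 * u2 * (u3 * u1) * u2 * u3 := by
            simp only [mul_assoc]
        _ = u1 * u2 * (u1 * u3) * u2 * u3 := by rw [c13]
        _ = u1 * (u2 * u1) * (u3 * u2) * u3 := by simp only [mul_assoc]
        _ = u1 * (u1 * u2) * (u2 * u3) * u3 := by rw [c12, c23]
        _ = (u1 * u1) * ((u2 * u2) * (u3 * u3)) := by simp only [mul_assoc]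
    rw [e, q1, q2, q3, D.zz, mul_one]
  set u4 := u1 * u2 * u3 with hu4
  have c14 : u4 * u1 = u1 * u4 := mul_cc (mul_cc rfl c12.symm) c13.symm
  have c24 : u4 * u2 = u2 * u4 := mul_cc (mul_cc c12 rfl) c23.symm
  have c34 : u4 * u3 = u3 * u4 := mul_cc (mul_cc c13 c23) rfl
  -- the two automorphisms
  obtain ⟨s, a, haL, has⟩ := hT (au D u1 q1 * au D u2 q2)
  obtain ⟨t, b, hbL, hbt⟩ := hT (au D u2 q2 * (au D u3 q3 * au D u4 q4))
  have hcj : ∀ r : Q, (QuotientGroup.mk' (MulAut.conj : Q →* MulAut Q).range) (MulAut.conj r) = 1 := by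
    intro r
    exact (QuotientGroup.eq_one_iff _).2 ⟨r, rfl⟩
  have a2 : a * a = 1 := by
    apply hL _ (L.mul_mem haL haL)
    have h1 : (QuotientGroup.mk' (MulAut.conj : Q →* MulAut Q).range) a =
        (QuotientGroup.mk' (MulAut.conj : Q →* MulAut Q).range) (au D u1 q1 * au D u2 q2) := by
      rw [← has, map_mul, hcj, one_mul]
    have h2 : (QuotientGroup.mk' (MulAut.conj : Q →* MulAut Q).range) (a * a) = 1 := by
      rw [map_mul, h1, ← map_mul]
      have e : (au D u1 q1 * au D u2 q2) * (au D u1 q1 * au D u2 q2) =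
          (au D u1 q1 * au D u1 q1) * (au D u2 q2 * au D u2 q2) := by
        rw [mul_assoc, ← mul_assoc (au D u2 q2) (au D u1 q1), ← au_comm D q1 q2 c12]
        simp only [mul_assoc]
      rw [e, au_sq, au_sq, map_mul, hcj, hcj, one_mul]
    exact (QuotientGroup.eq_one_iff _).1 h2
  have b2 : b * b = 1 := by
    apply hL _ (L.mul_mem hbL hbL)
    have h1 : (QuotientGroup.mk' (MulAut.conj : Q →* MulAut Q).range) b =
        (QuotientGroup.mk' (MulAut.conj : Q →* MulAut Q).range)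
          (au D u2 q2 * (au D u3 q3 * au D u4 q4)) := by
      rw [← hbt, map_mul, hcj, one_mul]
    have h2 : (QuotientGroup.mk' (MulAut.conj : Q →* MulAut Q).range) (b * b) = 1 := by
      rw [map_mul, h1, ← map_mul]
      have e34 := au_comm D q3 q4 c34.symm
      have e23 := au_comm D q2 q3 c23
      have e24 := au_comm D q2 q4 c24.symm
      have e : (au D u2 q2 * (au D u3 q3 * au D u4 q4)) * (au D u2 q2 * (au D u3 q3 * au D u4 q4)) =
          (au D u2 q2 * au D u2 q2) * ((au D u3 q3 * au D u3 q3) * (au D u4 q4 * au D u4 q4)) := by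
        have k1 : Commute (au D u2 q2) (au D u3 q3 * au D u4 q4) :=
          Commute.mul_right e23 e24
        have k2 : Commute (au D u3 q3) (au D u4 q4) := e34
        rw [k1.symm.mul_mul_mul_comm, k2.symm.mul_mul_mul_comm]
      rw [e, au_sq, au_sq, au_sq, map_mul, map_mul, hcj, hcj, hcj, one_mul, one_mul]
    exact (QuotientGroup.eq_one_iff _).1 h2
  have ab : a * b = b * a := by
    have h0 : a * b * (b * a)⁻¹ = 1 := by
      apply hL _ (L.mul_mem (L.mul_mem haL hbL) (L.inv_mem (L.mul_mem hbL haL)))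
      have h1 : (QuotientGroup.mk' (MulAut.conj : Q →* MulAut Q).range) a =
          (QuotientGroup.mk' (MulAut.conj : Q →* MulAut Q).range) (au D u1 q1 * au D u2 q2) := by
        rw [← has, map_mul, hcj, one_mul]
      have h2 : (QuotientGroup.mk' (MulAut.conj : Q →* MulAut Q).range) b =
          (QuotientGroup.mk' (MulAut.conj : Q →* MulAut Q).range)
            (au D u2 q2 * (au D u3 q3 * au D u4 q4)) := by
        rw [← hbt, map_mul, hcj, one_mul]
      have h3 : Commute (au D u1 q1 * au D u2 q2) (au D u2 q2 * (au D u3 q3 * au D u4 q4)) := by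
        have e12 : Commute (au D u1 q1) (au D u2 q2) := au_comm D q1 q2 c12
        have e13 : Commute (au D u1 q1) (au D u3 q3) := au_comm D q1 q3 c13
        have e14 : Commute (au D u1 q1) (au D u4 q4) := au_comm D q1 q4 c14.symm
        have e23 : Commute (au D u2 q2) (au D u3 q3) := au_comm D q2 q3 c23
        have e24 : Commute (au D u2 q2) (au D u4 q4) := au_comm D q2 q4 c24.symm
        exact Commute.mul_left (e12.mul_right (e13.mul_right e14))
          ((Commute.refl _).mul_right (e23.mul_right e24))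
      have h4 : (QuotientGroup.mk' (MulAut.conj : Q →* MulAut Q).range) (a * b * (b * a)⁻¹) = 1 := by
        rw [map_mul, map_inv, map_mul, map_mul, h1, h2, ← map_mul, ← map_mul, h3.eq, mul_inv_cancel]
      exact (QuotientGroup.eq_one_iff _).1 h4
    exact mul_inv_eq_one.1 h0
  -- the actions
  have ha : ∀ r : Q, ∃ ζ, Zt z ζ ∧ a r = (au D u1 q1 * au D u2 q2) r * ζ := by
    intro r
    obtain ⟨ζ, h1, h2⟩ := D.near s ((au D u1 q1 * au D u2 q2) r)
    refine ⟨ζ, h1, ?_⟩
    rw [← h2, ← has]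
    change a r = s⁻¹ * (s * a r * s⁻¹) * s
    group
  have hb : ∀ r : Q, ∃ ζ, Zt z ζ ∧ b r = (au D u2 q2 * (au D u3 q3 * au D u4 q4)) r * ζ := by
    intro r
    obtain ⟨ζ, h1, h2⟩ := D.near t ((au D u2 q2 * (au D u3 q3 * au D u4 q4)) r)
    refine ⟨ζ, h1, ?_⟩
    rw [← h2, ← hbt]
    change b r = t⁻¹ * (t * b r * t⁻¹) * t
    group
  have fz : ∀ (f : MulAut Q) (ζ : Q), Zt z ζ → f ζ = ζ := by
    rintro f ζ (rfl | rfl)
    · exact map_one f
    · exact haz f
  have av : (au D u1 q1 * au D u2 q2) v = v * u2 * u1 := by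
    change au D u1 q1 (au D u2 q2 v) = _
    rw [au_n D q2 v2, au_n D q1 (mul_nc v1 c12.symm)]
  have ax : (au D u1 q1 * au D u2 q2) x = x * u2 := by
    change au D u1 q1 (au D u2 q2 x) = _
    rw [au_n D q2 x2, au_c D q1 (mul_cc x1 c12.symm)]
  have v4 : v * u4 = u4 * v := by
    rw [hu4]
    exact mul_cc' (D.mul_nn' v1 v2) v3
  have bv : (au D u2 q2 * (au D u3 q3 * au D u4 q4)) v = v * u2 := by
    change au D u2 q2 (au D u3 q3 (au D u4 q4 v)) = _
    rw [au_c D q4 v4, au_c D q3 v3, au_n D q2 v2]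
  have y4 : ¬ y * u4 = u4 * y := by
    rw [hu4]
    exact sym (mul_cn (mul_cc y1.symm y2.symm) (sym y3))
  have by_ : (au D u2 q2 * (au D u3 q3 * au D u4 q4)) y = y * u4 * u3 := by
    change au D u2 q2 (au D u3 q3 (au D u4 q4 y)) = _
    rw [au_n D q4 y4, au_n D q3 (mul_nc y3 c34), au_c D q2 (mul_cc (mul_cc y2 c24) c23.symm)]
  obtain ⟨ζ1, hζ1, hav⟩ := ha v
  obtain ⟨ζ2, hζ2, hax⟩ := ha x
  obtain ⟨ζ3, hζ3, hbv⟩ := hb v
  obtain ⟨ζ4, hζ4, hby⟩ := hb y
  rw [av] at hav
  rw [ax] at hax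
  rw [bv] at hbv
  rw [by_] at hby
  have aa : ∀ r, a (a r) = r := fun r => by
    have := DFunLike.congr_fun a2 r
    exact this
  have bb : ∀ r, b (b r) = r := fun r => by
    have := DFunLike.congr_fun b2 r
    exact this
  -- a u2 = u2⁻¹ up to sign, exactly
  have au2 : ∃ ζ, Zt z ζ ∧ a (u2 * ζ3) = (u2 * ζ3)⁻¹ := by
    refine ⟨1, Or.inl rfl, ?_⟩
    have h1 := aa x
    rw [hax, map_mul, map_mul, hax, fz a ζ2 hζ2] at h1
    -- x * u2 * ζ2 * a u2 * ζ2 = x
    have h2 : x * (u2 * a u2) = x := by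
      calc x * (u2 * a u2) = x * u2 * a u2 * (ζ2 * ζ2) := by
            rw [D.zt_sq hζ2, mul_one, mul_assoc]
        _ = x * u2 * (a u2 * ζ2) * ζ2 := by simp only [mul_assoc]
        _ = x * u2 * (ζ2 * a u2) * ζ2 := by rw [D.zt_cen hζ2 (a u2)]
        _ = x * u2 * ζ2 * a u2 * ζ2 := by simp only [mul_assoc]
        _ = x := h1
    have h3 : u2 * a u2 = 1 := mul_left_cancel (h2.trans (mul_one x).symm)
    rw [map_mul, fz a ζ3 hζ3]
    apply eq_inv_of_mul_eq_one_right
    calc u2 * ζ3 * (a u2 * ζ3) = u2 * (ζ3 * a u2) * ζ3 := by simp only [mul_assoc]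
      _ = u2 * (a u2 * ζ3) * ζ3 := by rw [D.zt_cen hζ3 (a u2)]
      _ = (u2 * a u2) * (ζ3 * ζ3) := by simp only [mul_assoc]
      _ = 1 := by rw [h3, D.zt_sq hζ3, mul_one]
  obtain ⟨-, -, had⟩ := au2
  have hu43 : u4 * u3 = u2 * u1 * z := by
    rw [hu4, mul_assoc, q3, c12]
  have hbc : b (u2 * u1 * ζ1) = (u2 * u1 * ζ1)⁻¹ := by
    have h1 := bb y
    have hη := D.zt_mul (Or.inr rfl : Zt z z) hζ4
    rw [mul_assoc y u4 u3, hu43] at hby
    have hby' : b y = y * (u2 * u1) * (z * ζ4) := by rw [hby]; simp only [mul_assoc]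
    set η := z * ζ4 with hηd
    rw [hby', map_mul, map_mul, hby', fz b η hη] at h1
    have h2 : y * (u2 * u1 * b (u2 * u1)) = y := by
      calc y * (u2 * u1 * b (u2 * u1)) = y * (u2 * u1) * b (u2 * u1) * (η * η) := by
            rw [D.zt_sq hη, mul_one]; simp only [mul_assoc]
        _ = y * (u2 * u1) * (b (u2 * u1) * η) * η := by simp only [mul_assoc]
        _ = y * (u2 * u1) * (η * b (u2 * u1)) * η := by rw [D.zt_cen hη (b (u2 * u1))]
        _ = y * (u2 * u1) * η * b (u2 * u1) * η := by simp only [mul_assoc]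
        _ = y := h1
    have h3 : u2 * u1 * b (u2 * u1) = 1 := mul_left_cancel (h2.trans (mul_one y).symm)
    rw [map_mul, fz b ζ1 hζ1]
    apply eq_inv_of_mul_eq_one_right
    calc u2 * u1 * ζ1 * (b (u2 * u1) * ζ1) = u2 * u1 * (ζ1 * b (u2 * u1)) * ζ1 := by
          simp only [mul_assoc]
      _ = u2 * u1 * (b (u2 * u1) * ζ1) * ζ1 := by rw [D.zt_cen hζ1 (b (u2 * u1))]
      _ = (u2 * u1 * b (u2 * u1)) * (ζ1 * ζ1) := by simp only [mul_assoc]
      _ = 1 := by rw [h3, D.zt_sq hζ1, mul_one]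
  have key : a (b v) = b (a v) := DFunLike.congr_fun ab v
  rw [hbv, hav] at key
  have e1 : v * u2 * ζ3 = v * (u2 * ζ3) := mul_assoc _ _ _
  have e2 : v * u2 * u1 * ζ1 = v * (u2 * u1 * ζ1) := by simp only [mul_assoc]
  rw [e1, e2, map_mul a v, map_mul b v, had, hbc, hav, hbv, e1, e2, mul_assoc v, mul_assoc v] at key
  have key2 := mul_left_cancel key
  -- c d⁻¹ = d c⁻¹
  have k3 : (u2 * u1 * ζ1) * (u2 * ζ3)⁻¹ = u1 * (ζ1 * ζ3⁻¹) := by
    have : u2 * u1 = u1 * u2 := c12.symm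
    rw [this, mul_inv_rev]
    calc u1 * u2 * ζ1 * (ζ3⁻¹ * u2⁻¹) = u1 * (u2 * (ζ1 * ζ3⁻¹)) * u2⁻¹ := by
          simp only [mul_assoc]
      _ = u1 * ((ζ1 * ζ3⁻¹) * u2) * u2⁻¹ := by
          have h5 : u2 * (ζ1 * ζ3⁻¹) = (ζ1 * ζ3⁻¹) * u2 := by
            have h6 : ζ3⁻¹ = ζ3 := inv_eq_of_mul_eq_one_right (D.zt_sq hζ3)
            rw [h6]
            exact D.zt_cen (D.zt_mul hζ1 hζ3) u2
          rw [h5]
      _ = u1 * (ζ1 * ζ3⁻¹) := by simp only [mul_assoc, mul_inv_cancel, mul_one]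
  have k4 : (u2 * ζ3) * (u2 * u1 * ζ1)⁻¹ = (u1 * (ζ1 * ζ3⁻¹))⁻¹ := by
    rw [← k3, mul_inv_rev (u2 * u1 * ζ1), inv_inv]
  rw [k3, k4] at key2
  have k5 : (u1 * (ζ1 * ζ3⁻¹)) * (u1 * (ζ1 * ζ3⁻¹)) = 1 := by
    nth_rewrite 2 [key2]
    exact mul_inv_cancel _
  have h6 : ζ3⁻¹ = ζ3 := inv_eq_of_mul_eq_one_right (D.zt_sq hζ3)
  have hη := D.zt_mul hζ1 hζ3
  rw [h6] at k5
  have k7 : (u1 * (ζ1 * ζ3)) * (u1 * (ζ1 * ζ3)) = z := by
    calc (u1 * (ζ1 * ζ3)) * (u1 * (ζ1 * ζ3)) = u1 * ((ζ1 * ζ3) * u1) * (ζ1 * ζ3) := by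
          simp only [mul_assoc]
      _ = u1 * (u1 * (ζ1 * ζ3)) * (ζ1 * ζ3) := by rw [D.zt_cen hη u1]
      _ = (u1 * u1) * ((ζ1 * ζ3) * (ζ1 * ζ3)) := by simp only [mul_assoc]
      _ = z := by rw [q1, D.zt_sq hη, mul_one]
  exact D.ne (k7.symm.trans k5)

end CfsgL.ExtraTwo
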