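import Mathlib
import Cfsg.Agent.H1.Frat
import Cfsg.Agent.H1.PGrp2
import Cfsg.Prelude.Def_Transfer

/-! A `p'`-group acting on a `p`-group and centralizing the characteristic abelian subgroups. -/

set_option autoImplicit false

namespace CfsgL.SpecAct

open Subgroup

open scoped commutatorElement

universe u

variable {G : Type u} [Group G]

theorem char_central (A : Subgroup (MulAut G)) (hGA : closure {x : G | ∃ g : G, ∃ a ∈ A, x = g⁻¹ * a g} = ⊤)
    (hchar : ∀ H : Subgroup G, H.Characteristic → IsMulCommutative H → ∀ a ∈ A, ∀ h ∈ H, a h = h)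
    (H : Subgroup G) (hH : H.Characteristic) (hab : ∀ x ∈ H, ∀ y ∈ H, x * y = y * x) : H ≤ center G := by
  have hab' : IsMulCommutative H := ⟨⟨fun x y => Subtype.ext (hab x x.2 y y.2)⟩⟩
  have hn : H.Normal := inferInstance
  intro h hh
  have h1 : (⊤ : Subgroup G) ≤ centralizer ({h} : Set G) := by
    rw [← hGA, closure_le]
    rintro _ ⟨g, a, ha, rfl⟩
    rw [SetLike.mem_coe, mem_centralizer_singleton_iff]
    have h2 := hchar H hH hab' a ha _ (hn.conj_mem h hh g)
    rw [map_mul, map_mul, map_inv, hchar H hH hab' a ha h hh] at h2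
    have h3 : a g * h = g * h * g⁻¹ * a g := by rw [← h2]; group
    calc g⁻¹ * a g * h = g⁻¹ * (a g * h) := by group
      _ = g⁻¹ * (g * h * g⁻¹ * a g) := by rw [h3]
      _ = h * (g⁻¹ * a g) := by group
  rw [mem_center_iff]
  intro g
  exact (mem_centralizer_singleton_iff.1 (h1 (mem_top g)))

theorem cl2 [Finite G] [hN : Group.IsNilpotent G]
    (hcc : ∀ H : Subgroup G, H.Characteristic → (∀ x ∈ H, ∀ y ∈ H, x * y = y * x) → H ≤ center G) :
    commutator G ≤ center G := by
  by_contra hcon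
  obtain ⟨Z2, hZ2d⟩ : ∃ Z2 : Subgroup G, Z2 = (center (G ⧸ center G)).comap (QuotientGroup.mk' (center G)) := ⟨_, rfl⟩
  have hZ2 : ∀ z, z ∈ Z2 ↔ ∀ g, ⁅z, g⁆ ∈ center G := by
    intro z
    rw [hZ2d, mem_comap, mem_center_iff]
    constructor
    · intro h g
      rw [← QuotientGroup.eq_one_iff]
      have h1 := h (QuotientGroup.mk' (center G) g)
      have h2 : (QuotientGroup.mk' (center G)) ⁅z, g⁆ = 1 := by
        rw [map_commutatorElement, commutatorElement_eq_one_iff_mul_comm]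
        exact h1.symm
      exact h2
    · intro h y
      obtain ⟨g, rfl⟩ := QuotientGroup.mk'_surjective (center G) y
      have h2 : (QuotientGroup.mk' (center G)) ⁅z, g⁆ = 1 := (QuotientGroup.eq_one_iff _).2 (h g)
      rw [map_commutatorElement, commutatorElement_eq_one_iff_mul_comm] at h2
      exact h2.symm
  have hcommZ2 : ∀ z ∈ Z2, ∀ c ∈ commutator G, c * z = z * c := by
    intro z hz c hc
    have h1 : commutator G ≤ centralizer ({z} : Set G) := by
      rw [commutator_eq_closure, closure_le]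
      rintro _ ⟨a, b, rfl⟩
      rw [SetLike.mem_coe, mem_centralizer_singleton_iff]
      have ha := mem_center_iff.1 ((hZ2 z).1 hz a)
      have hb := mem_center_iff.1 ((hZ2 z).1 hz b)
      obtain ⟨u, hu⟩ : ∃ u, u = ⁅z, a⁆ := ⟨_, rfl⟩
      obtain ⟨v, hv⟩ : ∃ v, v = ⁅z, b⁆ := ⟨_, rfl⟩
      rw [← hu] at ha
      rw [← hv] at hb
      have ea : z * a * z⁻¹ = u * a := by rw [hu, commutatorElement_def]; group
      have eb : z * b * z⁻¹ = v * b := by rw [hv, commutatorElement_def]; group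
      have e1 : z * ⁅a, b⁆ * z⁻¹ = ⁅a, b⁆ := by
        have e2 : z * ⁅a, b⁆ * z⁻¹ = ⁅z * a * z⁻¹, z * b * z⁻¹⁆ := by
          simp only [commutatorElement_def]; group
        rw [e2, ea, eb]
        simp only [commutatorElement_def, mul_inv_rev]
        have hui : ∀ g, g * u⁻¹ = u⁻¹ * g := fun g => ((show Commute g u from ha g).inv_right).eq
        have hvi : ∀ g, g * v⁻¹ = v⁻¹ * g := fun g => ((show Commute g v from hb g).inv_right).eq
        calc u * a * (v * b) * (a⁻¹ * u⁻¹) * (b⁻¹ * v⁻¹) = u * a * (v * b) * (a⁻¹ * u⁻¹) * (v⁻¹ * b⁻¹) := by rw [hvi b⁻¹]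
          _ = u * a * (v * b) * (u⁻¹ * a⁻¹) * (v⁻¹ * b⁻¹) := by rw [hui a⁻¹]
          _ = u * (a * v) * b * u⁻¹ * (a⁻¹ * v⁻¹) * b⁻¹ := by group
          _ = u * (v * a) * b * u⁻¹ * (v⁻¹ * a⁻¹) * b⁻¹ := by rw [hb a, hvi a⁻¹]
          _ = u * v * ((a * b) * u⁻¹) * v⁻¹ * a⁻¹ * b⁻¹ := by group
          _ = u * v * (u⁻¹ * (a * b)) * v⁻¹ * a⁻¹ * b⁻¹ := by rw [hui (a * b)]
          _ = (u * v) * u⁻¹ * ((a * b) * v⁻¹) * a⁻¹ * b⁻¹ := by group
          _ = (v * u) * u⁻¹ * (v⁻¹ * (a * b)) * a⁻¹ * b⁻¹ := by rw [hb u, hvi (a * b)]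
          _ = a * b * a⁻¹ * b⁻¹ := by group
      have e3 : z * ⁅a, b⁆ = ⁅a, b⁆ * z := by rw [mul_inv_eq_iff_eq_mul] at e1; exact e1
      exact e3.symm
    exact mem_centralizer_singleton_iff.1 (h1 hc)
  haveI hZc : Z2.Characteristic := by
    rw [characteristic_iff_le_comap]
    intro φ z hz
    rw [mem_comap]
    rw [hZ2] at hz ⊢
    intro g
    have h1 := hz (φ.symm g)
    have h2 : φ.toMonoidHom ⁅z, φ.symm g⁆ ∈ center G := by
      have := (characteristic_iff_le_comap.1 (inferInstance : (center G).Characteristic)) φ h1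
      exact this
    rw [map_commutatorElement] at h2
    have h3 : φ.toMonoidHom (φ.symm g) = g := φ.apply_symm_apply g
    rwa [h3] at h2
  have hH : (Z2 ⊓ commutator G) ≤ center G := by
    apply hcc
    · rw [characteristic_iff_le_comap]
      intro φ x hx
      exact ⟨(characteristic_iff_le_comap.1 hZc) φ hx.1, (characteristic_iff_le_comap.1 (inferInstance : (commutator G).Characteristic)) φ hx.2⟩
    · intro x hx y hy
      exact (hcommZ2 y hy.1 x hx.2)
  obtain ⟨N, hNd⟩ : ∃ N : Subgroup (G ⧸ center G), N = (commutator G).map (QuotientGroup.mk' (center G)) := ⟨_, rfl⟩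
  haveI : N.Normal := by rw [hNd]; exact (inferInstance : (commutator G).Normal).map _ (QuotientGroup.mk'_surjective _)
  have hNne : N ≠ ⊥ := by
    intro h
    apply hcon
    rw [hNd, Subgroup.map_eq_bot_iff, QuotientGroup.ker_mk'] at h
    exact h
  have h1 := CfsgH1.nilpotent_normal_inf_center_ne_bot (G := G ⧸ center G) hNne
  rw [Ne, eq_bot_iff_forall] at h1
  push Not at h1
  obtain ⟨y, hy, hy1⟩ := h1
  have hyN : y ∈ N := by first | exact hy.1 | exact hy.2
  have hyZ : y ∈ center (G ⧸ center G) := by first | exact hy.2 | exact hy.1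
  rw [hNd] at hyN
  obtain ⟨c, hc, rfl⟩ := hyN
  apply hy1
  have hcZ : c ∈ Z2 := by rw [hZ2d, mem_comap]; exact hyZ
  exact (QuotientGroup.eq_one_iff _).2 (hH ⟨hcZ, hc⟩)

theorem comm_pow_left {x y : G} (h : ∀ z, ⁅x, y⁆ * z = z * ⁅x, y⁆) (n : ℕ) : ⁅x ^ n, y⁆ = ⁅x, y⁆ ^ n := by
  induction n with
  | zero => simp
  | succ n ih =>
    have e : ⁅x ^ (n + 1), y⁆ = x ^ n * ⁅x, y⁆ * (x ^ n)⁻¹ * ⁅x ^ n, y⁆ := by
      rw [pow_succ]; simp only [commutatorElement_def]; group
    rw [e, ih, ← h (x ^ n), mul_inv_cancel_right, pow_succ']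

theorem comm_pow_right {x y : G} (h : ∀ z, ⁅x, y⁆ * z = z * ⁅x, y⁆) (n : ℕ) : ⁅x, y ^ n⁆ = ⁅x, y⁆ ^ n := by
  have h' : ∀ z, ⁅y, x⁆ * z = z * ⁅y, x⁆ := by
    intro z
    rw [← commutatorElement_inv]
    exact ((show Commute ⁅x, y⁆ z from h z).inv_left).eq
  rw [← commutatorElement_inv, comm_pow_left h', ← inv_pow, commutatorElement_inv]

theorem exp_p [Finite G] {p : ℕ} [hp : Fact p.Prime] (hG : IsPGroup p G) (hcl : commutator G ≤ center G)
    (hcc : ∀ H : Subgroup G, H.Characteristic → (∀ x ∈ H, ∀ y ∈ H, x * y = y * x) → H ≤ center G) :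
    ∀ x y : G, ⁅x, y⁆ ^ p = 1 := by
  have hcz : ∀ x y z : G, ⁅x, y⁆ * z = z * ⁅x, y⁆ := fun x y z =>
    (mem_center_iff.1 (hcl (commutator_mem_commutator (mem_top x) (mem_top y))) z).symm
  have step : ∀ k : ℕ, 1 ≤ k → (∀ x y : G, ⁅x, y⁆ ^ p ^ (k + 1) = 1) → (∀ x y : G, ⁅x, y⁆ ^ p ^ k = 1) := by
    intro k hk h x y
    have hS : ∀ a b : G, a ^ p ^ k * b ^ p ^ k = b ^ p ^ k * a ^ p ^ k := by
      intro a b
      rw [← commutatorElement_eq_one_iff_mul_comm]
      have h1 : ∀ z, ⁅a, b ^ p ^ k⁆ * z = z * ⁅a, b ^ p ^ k⁆ := hcz a _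
      rw [comm_pow_left h1, comm_pow_right (hcz a b), ← pow_mul, ← pow_add]
      have h2 : p ^ (k + 1) ∣ p ^ (k + k) := pow_dvd_pow p (by omega)
      obtain ⟨c, hc⟩ := h2
      rw [hc, pow_mul, h, one_pow]
    have hH := hcc (closure (Set.range fun a : G => a ^ p ^ k)) (by
      rw [characteristic_iff_le_comap]
      intro φ
      rw [closure_le]
      rintro _ ⟨a, rfl⟩
      refine subset_closure ⟨φ a, ?_⟩
      exact (map_pow φ a _).symm) (by
      have h1 : closure (Set.range fun a : G => a ^ p ^ k) ≤ centralizer (Set.range fun a : G => a ^ p ^ k) := by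
        rw [closure_le]
        rintro _ ⟨a, rfl⟩
        rw [SetLike.mem_coe, mem_centralizer_iff]
        rintro _ ⟨b, rfl⟩
        exact hS b a
      have h2 : closure (Set.range fun a : G => a ^ p ^ k) ≤ centralizer (closure (Set.range fun a : G => a ^ p ^ k) : Set G) := by
        rw [closure_le]
        rintro _ ⟨a, rfl⟩
        rw [SetLike.mem_coe, mem_centralizer_iff]
        intro z hz
        exact ((mem_centralizer_iff.1 (h1 hz)) _ ⟨a, rfl⟩).symm
      intro u hu v hv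
      exact ((mem_centralizer_iff.1 (h2 hu)) v hv).symm)
    have h3 : x ^ p ^ k ∈ center G := hH (subset_closure ⟨x, rfl⟩)
    rw [← comm_pow_left (hcz x y)]
    rw [commutatorElement_eq_one_iff_mul_comm]
    exact ((mem_center_iff.1 h3) y).symm
  obtain ⟨n, hn⟩ := IsPGroup.iff_card.1 hG
  have hbig : ∀ x y : G, ⁅x, y⁆ ^ p ^ (n + 1) = 1 := by
    intro x y
    rw [pow_succ, pow_mul, ← hn, pow_card_eq_one', one_pow]
  have hall : ∀ m : ℕ, m ≤ n → ∀ x y : G, ⁅x, y⁆ ^ p ^ (n - m + 1) = 1 := by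
    intro m
    induction m with
    | zero => intro _; simpa using hbig
    | succ m ih =>
      intro hm
      have h1 := ih (by omega)
      have e : n - m = n - (m + 1) + 1 := by omega
      rw [e] at h1
      exact step _ (by omega) h1
  have := hall n le_rfl
  simpa using this

theorem fixed_mem [Finite G] {p : ℕ} [hp : Fact p.Prime] (hG : IsPGroup p G) (A : Subgroup (MulAut G)) (hA : Nat.Coprime (Nat.card A) p)
    (hGA : closure {x : G | ∃ g : G, ∃ a ∈ A, x = g⁻¹ * a g} = ⊤) (g : G) (hg : ∀ a ∈ A, a g = g) : g ∈ commutator G := by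
  classical
  haveI : Finite (MulAut G) := Finite.of_injective (fun f : MulAut G => (f : G → G)) DFunLike.coe_injective
  letI : Fintype A := Fintype.ofFinite A
  let ν : G →* Abelianization G := ∏ a : A, (Abelianization.of.comp (a : MulAut G).toMonoidHom)
  have hν : ∀ x, ν x = ∏ a : A, Abelianization.of ((a : MulAut G) x) := by
    intro x
    change (∏ a : A, (Abelianization.of.comp (a : MulAut G).toMonoidHom)) x = _
    rw [MonoidHom.finsetProd_apply]
    rfl
  have h1 : (⊤ : Subgroup G) ≤ ν.ker := by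
    rw [← hGA, closure_le]
    rintro _ ⟨x, b, hb, rfl⟩
    rw [SetLike.mem_coe, MonoidHom.mem_ker, map_mul, map_inv, inv_mul_eq_one, hν, hν]
    symm
    exact Fintype.prod_equiv (Equiv.mulRight (⟨b, hb⟩ : A)) _ _ (fun a => rfl)
  have h2 : ν g = 1 := h1 (mem_top g)
  rw [hν] at h2
  have h3 : ∀ a : A, Abelianization.of ((a : MulAut G) g) = Abelianization.of g := fun a => by rw [hg a a.2]
  rw [Finset.prod_congr rfl (fun a _ => h3 a), Finset.prod_const, Finset.card_univ, ← map_pow, ← Nat.card_eq_fintype_card] at h2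
  have h4 : g ^ Nat.card A ∈ commutator G := by
    rw [← Abelianization.ker_of]
    exact h2
  obtain ⟨k, hk⟩ := IsPGroup.iff_orderOf.1 hG g
  obtain ⟨m, hm⟩ := exists_pow_eq_self_of_coprime (n := Nat.card A) (x := g) (by rw [hk]; exact Nat.Coprime.pow_right k hA)
  rw [← hm]
  exact (commutator G).pow_mem h4 m

theorem main [Finite G] {p : ℕ} [hp : Fact p.Prime] (hG : IsPGroup p G) (A : Subgroup (MulAut G)) (hA : Nat.Coprime (Nat.card A) p)
    (hGA : closure {x : G | ∃ g : G, ∃ a ∈ A, x = g⁻¹ * a g} = ⊤)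
    (hchar : ∀ H : Subgroup G, H.Characteristic → IsMulCommutative H → ∀ a ∈ A, ∀ h ∈ H, a h = h) :
    Cfsg.IsSpecial p G ∧ (∀ g : G, (g ∈ center G ↔ ∀ a ∈ A, a g = g)) := by
  haveI : Group.IsNilpotent G := hG.isNilpotent
  have hcc : ∀ H : Subgroup G, H.Characteristic → (∀ x ∈ H, ∀ y ∈ H, x * y = y * x) → H ≤ center G :=
    fun H hH hab => char_central A hGA hchar H hH hab
  have hcl : commutator G ≤ center G := cl2 hcc
  have hcf : ∀ g ∈ center G, ∀ a ∈ A, a g = g := by
    intro g hg a ha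
    exact hchar (center G) inferInstance ⟨⟨fun x y => Subtype.ext ((mem_center_iff.1 y.2) x)⟩⟩ a ha g hg
  have hfc : ∀ g, (∀ a ∈ A, a g = g) → g ∈ commutator G := fixed_mem hG A hA hGA
  have heq : commutator G = center G := le_antisymm hcl (fun g hg => hfc g (hcf g hg))
  have hexp := exp_p hG hcl hcc
  refine ⟨⟨hG, le_antisymm ?_ ?_, heq⟩, fun g => ⟨hcf g, fun h => hcl (hfc g h)⟩⟩
  · apply CfsgH1.frattini_le_of_elementary (p := p) hcl
    intro x
    rw [mem_center_iff]
    intro y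
    have h1 : ⁅x ^ p, y⁆ = 1 := by
      rw [comm_pow_left (fun z => (mem_center_iff.1 (hcl (commutator_mem_commutator (mem_top x) (mem_top y))) z).symm), hexp]
    exact (commutatorElement_eq_one_iff_mul_comm.1 h1).symm
  · rw [← heq]
    exact CfsgH1.commutator_le_frattini

end CfsgL.SpecAct
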