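import Mathlib
import Cfsg.Agent.H8.FratStrong
import Cfsg.Agent.H8.GrpRes
import Cfsg.Agent.H3.NPC2
import Cfsg.Agent.H3.HHFrat

/-! The group form of Tate's theorem. -/

set_option autoImplicit false

namespace CfsgL.TateGrp

open Cfsg Cfsg.FusionSystem CfsgH8

open scoped commutatorElement

universe u

theorem tate_grp {G : Type u} [Group G] [Finite G] {p : ℕ} [hp : Fact p.Prime] (S : Sylow p G)
    (h : ∀ g x : G, x ∈ (S : Subgroup G) → g * x * g⁻¹ ∈ (S : Subgroup G) →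
      x⁻¹ * (g * x * g⁻¹) ∈ (frattini ↥(S : Subgroup G)).map (S : Subgroup G).subtype) : CfsgH3.HasNPC p G := by
  have hF := sylow_saturated S
  have hfoc : (groupFusionSystem (S : Subgroup G)).focalSubgroup ≤ (frattini ↥(S : Subgroup G)).map (S : Subgroup G).subtype := by
    unfold focalSubgroup
    rw [Subgroup.closure_le]
    rintro _ ⟨P, φ, x, ⟨h1, h2, g, h3⟩, rfl⟩
    rw [h3 x]
    exact h g x (h1 x.2) (by rw [← h3 x]; exact h2 x)
  have h1 := hyp_of_PA (PA_of_foc_le_frattini S.2 hF hfoc)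
  rw [grp_hyp] at h1
  rw [CfsgH3.hasNPC_iff_card]
  haveI := CfsgH3.pResidual_normal' p G
  obtain ⟨Q, hQ⟩ := CfsgH3.exists_sylow_inf_normal S (pResidual p G)
  have h2 : (Q : Subgroup (pResidual p G)) = ⊥ := by
    rw [hQ, Subgroup.subgroupOf_eq_bot, disjoint_iff]; exact h1
  have h3 := Q.not_dvd_index
  rw [h2, Subgroup.index_bot] at h3
  exact ((Nat.Prime.coprime_iff_not_dvd hp.out).2 h3).symm

theorem tate_normal {G : Type u} [Group G] [Finite G] {p : ℕ} [hp : Fact p.Prime] (P : Sylow p G) (N : Subgroup G) [hN : N.Normal]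
    (h : N ⊓ (P : Subgroup G) ≤ (frattini P).map (P : Subgroup G).subtype) : CfsgH3.HasNPC p N := by
  have hPM : (P : Subgroup G) ≤ N ⊔ (P : Subgroup G) := le_sup_right
  refine CfsgH3.HasNPC.le (K := N ⊔ (P : Subgroup G)) ?_ le_sup_left
  obtain ⟨T, hT⟩ : ∃ T : Sylow p ↥(N ⊔ (P : Subgroup G)), (T : Subgroup ↥(N ⊔ (P : Subgroup G))) = (P : Subgroup G).subgroupOf (N ⊔ (P : Subgroup G)) :=
    ⟨P.subtype hPM, rfl⟩
  apply tate_grp T
  intro g x hx hgx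
  have hxP : (x : G) ∈ (P : Subgroup G) := by rw [hT] at hx; exact hx
  have hgxP : (g : G) * x * (g : G)⁻¹ ∈ (P : Subgroup G) := by rw [hT] at hgx; exact hgx
  obtain ⟨n, hn, q, hq, hnq⟩ := (Subgroup.mem_sup_of_normal_left).1 g.2
  have hyP : q * x * q⁻¹ ∈ (P : Subgroup G) := (P : Subgroup G).mul_mem ((P : Subgroup G).mul_mem hq hxP) ((P : Subgroup G).inv_mem hq)
  have e0 : (g : G) * x * (g : G)⁻¹ = n * (q * x * q⁻¹) * n⁻¹ := by rw [← hnq]; simp only [mul_inv_rev, mul_assoc]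
  rw [e0] at hgxP
  haveI : Group.IsNilpotent ↥(P : Subgroup G) := P.2.isNilpotent
  have key : (x : G)⁻¹ * ((g : G) * x * (g : G)⁻¹) ∈ (frattini P).map (P : Subgroup G).subtype := by
    have e1 : (x : G)⁻¹ * ((g : G) * x * (g : G)⁻¹) = ⁅(x : G)⁻¹, q⁆ * ((q * x * q⁻¹)⁻¹ * (n * (q * x * q⁻¹) * n⁻¹)) := by
      rw [e0, commutatorElement_def]
      group
    rw [e1]
    refine Subgroup.mul_mem _ ?_ (h ⟨?_, ?_⟩)
    · refine ⟨⁅(⟨(x : G)⁻¹, (P : Subgroup G).inv_mem hxP⟩ : ↥(P : Subgroup G)), ⟨q, hq⟩⁆, ?_, rfl⟩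
      exact CfsgH1.commutator_le_frattini (Subgroup.commutator_mem_commutator (Subgroup.mem_top _) (Subgroup.mem_top _))
    · have h1 : (q * x * q⁻¹)⁻¹ * n * (q * x * q⁻¹)⁻¹⁻¹ ∈ N := hN.conj_mem n hn _
      rw [inv_inv] at h1
      have h2 := N.mul_mem h1 (N.inv_mem hn)
      rwa [show (q * x * q⁻¹)⁻¹ * n * (q * x * q⁻¹) * n⁻¹ = (q * x * q⁻¹)⁻¹ * (n * (q * x * q⁻¹) * n⁻¹) by simp only [mul_assoc]] at h2
    · exact (P : Subgroup G).mul_mem ((P : Subgroup G).inv_mem hyP) hgxP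
  have hzT : x⁻¹ * (g * x * g⁻¹) ∈ (T : Subgroup ↥(N ⊔ (P : Subgroup G))) :=
    (T : Subgroup ↥(N ⊔ (P : Subgroup G))).mul_mem ((T : Subgroup ↥(N ⊔ (P : Subgroup G))).inv_mem hx) hgx
  have hT2 : ∀ y : ↥(N ⊔ (P : Subgroup G)), y ∈ (T : Subgroup ↥(N ⊔ (P : Subgroup G))) → (y : G) ∈ (P : Subgroup G) := by
    intro y hy
    rw [hT] at hy
    exact hy
  have hmem : ∀ y : ↥(T : Subgroup ↥(N ⊔ (P : Subgroup G))), ((y : ↥(N ⊔ (P : Subgroup G))) : G) ∈ (P : Subgroup G) :=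
    fun y => hT2 _ y.2
  obtain ⟨e, he⟩ : ∃ e : ↥(T : Subgroup ↥(N ⊔ (P : Subgroup G))) ≃* ↥(P : Subgroup G), ∀ y, ((e y : ↥(P : Subgroup G)) : G) = ((y : ↥(N ⊔ (P : Subgroup G))) : G) := by
    refine ⟨MulEquiv.ofBijective ((((N ⊔ (P : Subgroup G)).subtype).comp (T : Subgroup ↥(N ⊔ (P : Subgroup G))).subtype).codRestrict (P : Subgroup G) hmem) ⟨?_, ?_⟩, fun y => rfl⟩
    · intro a b hab
      exact Subtype.ext (Subtype.ext (congrArg (fun z : ↥(P : Subgroup G) => (z : G)) hab))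
    · rintro ⟨y, hy⟩
      exact ⟨⟨⟨y, hPM hy⟩, by rw [hT]; exact hy⟩, rfl⟩
  refine ⟨⟨_, hzT⟩, ?_, rfl⟩
  rw [SetLike.mem_coe, ← CfsgH3.mem_frattini_equiv e]
  obtain ⟨w, hw, hwz⟩ := key
  have h1 : e ⟨_, hzT⟩ = w := Subtype.ext (by rw [he]; exact hwz.symm)
  rw [h1]
  exact hw

end CfsgL.TateGrp
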